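import Mathlib

/-!
Symplectic-type groups `R` (with scalars `±1, ±i`) spanning `End V`, groups `G` containing `R`
and the quarter turns `1 + i • y`, and restriction to an eigenspace of an involution of `R`.
-/

set_option autoImplicit false
set_option maxSynthPendingDepth 3

namespace Cfsg.Agent.MaxSub.CSix

variable {F : Type*} [Field F] {V : Type*} [AddCommGroup V] [Module F V]

/-- Not a scalar. -/
def NS (f : Module.End F V) : Prop := ∀ c : F, f ≠ c • (1 : Module.End F V)

structure Data (i : F) (R : Set (Module.End F V)) : Prop where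
  sq_i : i * i = -1
  two_ne : (2 : F) ≠ 0
  i_mem : i • (1 : Module.End F V) ∈ R
  mul_mem : ∀ a ∈ R, ∀ b ∈ R, a * b ∈ R
  comm_sign : ∀ a ∈ R, ∀ b ∈ R, a * b = b * a ∨ a * b = -(b * a)
  sq_sign : ∀ a ∈ R, a * a = 1 ∨ a * a = -1
  span_eq : Submodule.span F R = ⊤

structure Grp (i : F) (R G : Set (Module.End F V)) : Prop where
  inv_mem : ∀ g ∈ G, ∃ g' ∈ G, g * g' = 1 ∧ g' * g = 1
  mul_mem : ∀ a ∈ G, ∀ b ∈ G, a * b ∈ G
  smul_mem : ∀ c : F, c ≠ 0 → c • (1 : Module.End F V) ∈ G
  sub : R ⊆ G
  t_mem : ∀ y ∈ R, y * y = 1 → 1 + i • y ∈ G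

/-- `g` normalises the set `R`. -/
def Nrm (R : Set (Module.End F V)) (g : Module.End F V) : Prop :=
  ∀ a ∈ R, ∃ a' ∈ R, g * a = a' * g

section Scalars

lemma smul_one_inj [Nontrivial V] {c d : F}
    (h : c • (1 : Module.End F V) = d • (1 : Module.End F V)) : c = d := by
  obtain ⟨v, hv⟩ := exists_ne (0 : V)
  have := congrArg (fun f : Module.End F V => f v) h
  simp only [LinearMap.smul_apply, Module.End.one_apply] at this
  exact smul_left_injective F hv this

lemma scalar_of_central [Nontrivial V] {f : Module.End F V}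
    (h : ∀ g : Module.End F V, f * g = g * f) : ∃ c : F, f = c • (1 : Module.End F V) := by
  obtain ⟨v, hv⟩ := exists_ne (0 : V)
  obtain ⟨φ, hφ⟩ := Module.Projective.exists_dual_ne_zero F hv
  refine ⟨(φ v)⁻¹ * φ (f v), LinearMap.ext fun w => ?_⟩
  have := congrArg (fun g : Module.End F V => g v) (h (LinearMap.smulRight φ w))
  simp only [Module.End.mul_apply, LinearMap.smulRight_apply, map_smul] at this
  rw [LinearMap.smul_apply, Module.End.one_apply, mul_smul, ← this, smul_smul,
    inv_mul_cancel₀ hφ, one_smul]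

lemma NS.ne_zero {f : Module.End F V} (h : NS f) : f ≠ 0 := fun h0 => h 0 (by simp [h0])

lemma NS.ne_one {f : Module.End F V} (h : NS f) : f ≠ 1 := fun h0 => h 1 (by simp [h0])

lemma NS.ne_neg_one {f : Module.End F V} (h : NS f) : f ≠ -1 := fun h0 => h (-1) (by simp [h0])

lemma NS.smul {f : Module.End F V} (h : NS f) {c : F} (hc : c ≠ 0) : NS (c • f) := by
  intro d hd
  exact h (c⁻¹ * d) (by rw [mul_smul, ← hd, inv_smul_smul₀ hc])

lemma NS.of_anticomm [Nontrivial V] (h2 : (2 : F) ≠ 0) {f g : Module.End F V}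
    (hfg : f * g = -(g * f)) (hf : f * f ≠ 0) (hg : g ≠ 0) : NS f := by
  rintro c rfl
  rw [Algebra.smul_mul_assoc, one_mul, Algebra.mul_smul_comm, mul_one] at hfg
  have : (2 * c) • g = 0 := by
    rw [two_mul, add_smul]
    nth_rewrite 1 [hfg]
    simp
  rcases smul_eq_zero.1 this with h | h
  · rcases mul_eq_zero.1 h with h | h
    · exact h2 h
    · simp [h] at hf
  · exact hg h

end Scalars

namespace Data

variable {i : F} {R : Set (Module.End F V)}

lemma i_ne (hD : Data i R) : i ≠ 0 := fun h => by simpa [h] using hD.sq_i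

lemma neg_one_mem (hD : Data i R) : (-1 : Module.End F V) ∈ R := by
  have := hD.mul_mem _ hD.i_mem _ hD.i_mem
  rwa [smul_mul_smul_comm, one_mul, hD.sq_i, neg_one_smul] at this

lemma one_mem (hD : Data i R) : (1 : Module.End F V) ∈ R := by
  simpa using hD.mul_mem _ hD.neg_one_mem _ hD.neg_one_mem

lemma neg_mem (hD : Data i R) {a : Module.End F V} (ha : a ∈ R) : -a ∈ R := by
  simpa using hD.mul_mem _ hD.neg_one_mem _ ha

lemma i_smul_mem (hD : Data i R) {a : Module.End F V} (ha : a ∈ R) : i • a ∈ R := by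
  simpa using hD.mul_mem _ hD.i_mem _ ha

lemma i_smul_sq (hD : Data i R) {a : Module.End F V} : (i • a) * (i • a) = -(a * a) := by
  rw [smul_mul_smul_comm, hD.sq_i, neg_one_smul]

/-- Every element of `R` has a multiple in `R` squaring to `1`. -/
lemma exists_sq_one (hD : Data i R) {a : Module.End F V} (ha : a ∈ R) :
    ∃ c : F, c ≠ 0 ∧ c • a ∈ R ∧ (c • a) * (c • a) = 1 := by
  rcases hD.sq_sign a ha with h | h
  · exact ⟨1, one_ne_zero, by simpa using ha, by simpa using h⟩
  · exact ⟨i, hD.i_ne, hD.i_smul_mem ha, by rw [hD.i_smul_sq, h, neg_neg]⟩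

lemma smul_mem_of_sq [Nontrivial V] (hD : Data i R) {a : Module.End F V} (ha : a ∈ R) {c : F}
    (h : (c • a) * (c • a) = 1) : c • a ∈ R := by
  rw [smul_mul_smul_comm] at h
  rcases hD.sq_sign a ha with h1 | h1 <;> rw [h1] at h
  · have : c * c = 1 := smul_one_inj (V := V) (by rw [h, one_smul])
    rcases mul_self_eq_one_iff.1 this with rfl | rfl
    · simpa using ha
    · simpa using hD.neg_mem ha
  · have : c * c = i * i := smul_one_inj (V := V) (by
      rw [hD.sq_i, neg_one_smul, ← neg_eq_iff_eq_neg, ← smul_neg, h])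
    rcases mul_self_eq_mul_self_iff.1 this with rfl | rfl
    · exact hD.i_smul_mem ha
    · simpa using hD.neg_mem (hD.i_smul_mem ha)

lemma isUnit (hD : Data i R) {a : Module.End F V} (ha : a ∈ R) : IsUnit a := by
  rcases hD.sq_sign a ha with h | h
  · exact ⟨⟨a, a, h, h⟩, rfl⟩
  · exact ⟨⟨a, -a, by simp [h], by simp [h]⟩, rfl⟩

lemma scalar_of_commute [Nontrivial V] (hD : Data i R) {f : Module.End F V}
    (h : ∀ r ∈ R, f * r = r * f) : ∃ c : F, f = c • (1 : Module.End F V) := by
  refine scalar_of_central fun g => ?_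
  have hg : g ∈ Submodule.span F R := hD.span_eq ▸ Submodule.mem_top
  induction hg using Submodule.span_induction with
  | mem x hx => exact h x hx
  | zero => simp
  | add x y _ _ hx hy => rw [mul_add, add_mul, hx, hy]
  | smul c x _ hx => rw [mul_smul_comm, smul_mul_assoc, hx]

/-- A non-scalar element of `R` anticommutes with an involution of `R`. -/
lemma exists_anticomm [Nontrivial V] (hD : Data i R) {a : Module.End F V} (ha : a ∈ R)
    (hns : NS a) : ∃ b ∈ R, b * b = 1 ∧ a * b = -(b * a) := by
  by_contra hcon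
  push Not at hcon
  obtain ⟨c, hc⟩ := hD.scalar_of_commute (f := a) fun r hr => by
    obtain ⟨c, hc, hm, hsq⟩ := hD.exists_sq_one hr
    rcases hD.comm_sign a ha (c • r) hm with h | h
    · rw [mul_smul_comm, smul_mul_assoc] at h
      exact smul_right_injective _ hc h
    · exact absurd h (hcon _ hm hsq)
  exact hns c hc

end Data

namespace Grp

variable {i : F} {R G : Set (Module.End F V)}

lemma one_mem (hG : Grp i R G) : (1 : Module.End F V) ∈ G := by
  simpa using hG.smul_mem 1 one_ne_zero

lemma smul_mem' (hG : Grp i R G) {c : F} (hc : c ≠ 0) {g : Module.End F V} (hg : g ∈ G) :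
    c • g ∈ G := by
  simpa using hG.mul_mem _ (hG.smul_mem c hc) _ hg

lemma pow_mem (hG : Grp i R G) {g : Module.End F V} (hg : g ∈ G) (n : ℕ) : g ^ n ∈ G := by
  induction n with
  | zero => simpa using hG.one_mem
  | succ n ih => rw [pow_succ]; exact hG.mul_mem _ ih _ hg

lemma isUnit (hG : Grp i R G) {g : Module.End F V} (hg : g ∈ G) : IsUnit g := by
  obtain ⟨g', -, h1, h2⟩ := hG.inv_mem g hg
  exact ⟨⟨g, g', h1, h2⟩, rfl⟩

end Grp

/-! ### Eigenspaces -/

/-- The fixed space of `x`. -/
abbrev Eig (x : Module.End F V) : Submodule F V := LinearMap.ker (x - 1)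

lemma mem_eig {x : Module.End F V} {v : V} : v ∈ Eig x ↔ x v = v := by
  simp [sub_eq_zero]

lemma comm_mem_eig {x f : Module.End F V} (h : x * f = f * x) {v : V} (hv : v ∈ Eig x) :
    f v ∈ Eig x := by
  rw [mem_eig] at hv ⊢
  have := congrArg (fun g : Module.End F V => g v) h
  simpa [hv] using this

/-- The projection onto the fixed space of an involution. -/
noncomputable def eigProj (h2 : (2 : F) ≠ 0) (x : Module.End F V) (hx : x * x = 1) :
    V →ₗ[F] Eig x :=
  LinearMap.codRestrict (Eig x) ((2 : F)⁻¹ • (1 + x)) fun v => by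
    have := congrArg (fun g : Module.End F V => g v) hx
    rw [mem_eig]
    simp only [Module.End.mul_apply, Module.End.one_apply] at this
    simp only [LinearMap.smul_apply, LinearMap.add_apply, Module.End.one_apply, map_smul, map_add,
      this]
    rw [add_comm]

lemma eigProj_coe (h2 : (2 : F) ≠ 0) (x : Module.End F V) (hx : x * x = 1) (v : V) :
    (eigProj h2 x hx v : V) = (2 : F)⁻¹ • (v + x v) := rfl

lemma eigProj_self (h2 : (2 : F) ≠ 0) (x : Module.End F V) (hx : x * x = 1) (w : Eig x) :
    eigProj h2 x hx (w : V) = w := by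
  refine Subtype.ext ?_
  rw [eigProj_coe, mem_eig.1 w.2, ← two_smul F (w : V), smul_smul, inv_mul_cancel₀ h2, one_smul]

/-- The endomorphisms induced on `Eig x` by the elements of `S` commuting with `x`. -/
def Res (x : Module.End F V) (S : Set (Module.End F V)) : Set (Module.End F (Eig x)) :=
  {φ | ∃ f ∈ S, x * f = f * x ∧ ∀ w : Eig x, (φ w : V) = f w}

/-- The restriction of an element commuting with `x`. -/
def resEl (x f : Module.End F V) (h : x * f = f * x) : Module.End F (Eig x) :=
  f.restrict fun _ hv => comm_mem_eig h hv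

@[simp] lemma resEl_coe (x f : Module.End F V) (h : x * f = f * x) (w : Eig x) :
    (resEl x f h w : V) = f w := rfl

lemma resEl_mem {x : Module.End F V} {S : Set (Module.End F V)} {f : Module.End F V} (hf : f ∈ S)
    (h : x * f = f * x) : resEl x f h ∈ Res x S :=
  ⟨f, hf, h, fun _ => rfl⟩

/-- Every restriction of `G` to an eigenspace normalises the restriction of `R`. -/
def Good (R G : Set (Module.End F V)) : Prop :=
  ∀ x ∈ R, x * x = 1 → NS x → ∀ φ ∈ Res x G, Nrm (Res x R) φ

variable {i : F} {R G : Set (Module.End F V)}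

lemma two_mul_finrank_eig [FiniteDimensional F V] (h2 : (2 : F) ≠ 0) {x a : Module.End F V}
    (hx : x * x = 1) (ha : a * a = 1) (hxa : x * a = -(a * x)) :
    2 * Module.finrank F (Eig x) = Module.finrank F V := by
  have hax : ∀ v : V, x (a v) = -a (x v) := fun v => by
    simpa using congrArg (fun g : Module.End F V => g v) hxa
  have haa : ∀ v : V, a (a v) = v := fun v => by
    simpa using congrArg (fun g : Module.End F V => g v) ha
  let e : V ≃ₗ[F] Eig x × Eig x :=
    { toFun := fun v => (eigProj h2 x hx v, eigProj h2 x hx (a v))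
      map_add' := fun u v => by simp
      map_smul' := fun c v => by simp
      invFun := fun p => (p.1 : V) + a (p.2 : V)
      left_inv := fun v => by
        simp only [eigProj_coe, hax, map_smul, map_add, map_neg, haa]
        rw [← smul_add]
        have : v + x v + (v + -x v) = (2 : F) • v := by rw [two_smul]; abel
        rw [this, smul_smul, inv_mul_cancel₀ h2, one_smul]
      right_inv := fun p => by
        have h1 := mem_eig.1 p.1.2
        have h3 := mem_eig.1 p.2.2
        ext1 <;> refine Subtype.ext ?_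
        · simp only [eigProj_coe, map_add, Submodule.coe_add, hax, h1, h3, ← smul_add]
          have : (p.1 : V) + p.1 + (a p.2 + -a p.2) = (2 : F) • (p.1 : V) := by
            rw [two_smul]; abel
          rw [this, smul_smul, inv_mul_cancel₀ h2, one_smul]
        · simp only [eigProj_coe, map_add, Submodule.coe_add, hax, haa, h1, h3, ← smul_add]
          have : a (p.1 : V) + -a (p.1 : V) + ((p.2 : V) + p.2) = (2 : F) • (p.2 : V) := by
            rw [two_smul]; abel
          rw [this, smul_smul, inv_mul_cancel₀ h2, one_smul] }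
  rw [e.finrank_eq, Module.finrank_prod, two_mul]

lemma finrank_eig_of_mem [Nontrivial V] [FiniteDimensional F V] (hD : Data i R)
    {x : Module.End F V} (hxR : x ∈ R) (hx : x * x = 1) (hns : NS x) :
    2 * Module.finrank F (Eig x) = Module.finrank F V := by
  obtain ⟨a, -, ha, hxa⟩ := hD.exists_anticomm hxR hns
  exact two_mul_finrank_eig hD.two_ne hx ha hxa

lemma nontrivial_eig [Nontrivial V] [FiniteDimensional F V] (hD : Data i R) {x : Module.End F V}
    (hxR : x ∈ R) (hx : x * x = 1) (hns : NS x) : Nontrivial (Eig x) := by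
  have h1 := finrank_eig_of_mem hD hxR hx hns
  have h0 := Module.finrank_pos (R := F) (M := V)
  exact Module.nontrivial_of_finrank_pos (R := F) (by omega)

/-- The span of the centraliser of `x` in `R` is the centraliser of `x`. -/
lemma mem_span_centraliser (hD : Data i R) {x : Module.End F V} (hxR : x ∈ R) (hx : x * x = 1)
    {f : Module.End F V} (hf : x * f = f * x) :
    f ∈ Submodule.span F {r | r ∈ R ∧ x * r = r * x} := by
  have key : ∀ g : Module.End F V, g + x * g * x ∈ Submodule.span F {r | r ∈ R ∧ x * r = r * x} := by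
    intro g
    have hg : g ∈ Submodule.span F R := hD.span_eq ▸ Submodule.mem_top
    induction hg using Submodule.span_induction with
    | mem r hr =>
        rcases hD.comm_sign x hxR r hr with h | h
        · rw [h, mul_assoc, hx, mul_one]
          exact Submodule.add_mem _ (Submodule.subset_span ⟨hr, h⟩) (Submodule.subset_span ⟨hr, h⟩)
        · rw [h, neg_mul, mul_assoc, hx, mul_one, add_neg_cancel]
          exact Submodule.zero_mem _
    | zero => simp
    | add u v _ _ hu hv =>
        have : u + v + x * (u + v) * x = (u + x * u * x) + (v + x * v * x) := by noncomm_ring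
        rw [this]
        exact Submodule.add_mem _ hu hv
    | smul c u _ hu =>
        rw [mul_smul_comm, smul_mul_assoc, ← smul_add]
        exact Submodule.smul_mem _ c hu
  have := Submodule.smul_mem _ (2 : F)⁻¹ (key f)
  rwa [hf, mul_assoc, hx, mul_one, ← two_smul F f, smul_smul, inv_mul_cancel₀ hD.two_ne,
    one_smul] at this

lemma Data.res [Nontrivial V] [FiniteDimensional F V] (hD : Data i R) {x : Module.End F V}
    (hxR : x ∈ R) (hx : x * x = 1) : Data i (Res x R) := by
  refine ⟨hD.sq_i, hD.two_ne, ⟨i • 1, hD.i_mem, by simp, fun w => by simp⟩, ?_, ?_, ?_, ?_⟩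
  · rintro φ ⟨f, hf, hfc, hφ⟩ ψ ⟨g, hg, hgc, hψ⟩
    exact ⟨f * g, hD.mul_mem f hf g hg, by rw [← mul_assoc, hfc, mul_assoc, hgc, mul_assoc],
      fun w => by simp [hφ, hψ]⟩
  · rintro φ ⟨f, hf, hfc, hφ⟩ ψ ⟨g, hg, hgc, hψ⟩
    refine (hD.comm_sign f hf g hg).imp (fun h => ?_) (fun h => ?_) <;>
      refine LinearMap.ext fun w => Subtype.ext ?_ <;>
      simpa [hφ, hψ] using congrArg (fun k : Module.End F V => k w) h
  · rintro φ ⟨f, hf, hfc, hφ⟩
    refine (hD.sq_sign f hf).imp (fun h => ?_) (fun h => ?_) <;>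
      refine LinearMap.ext fun w => Subtype.ext ?_ <;>
      simpa [hφ] using congrArg (fun k : Module.End F V => k w) h
  · refine eq_top_iff.2 fun φ _ => ?_
    let π := eigProj hD.two_ne x hx
    let Φ : Module.End F V →ₗ[F] Module.End F (Eig x) :=
      { toFun := fun f => π.comp (f.comp (Eig x).subtype)
        map_add' := fun f g => by ext w; simp
        map_smul' := fun c f => by ext w; simp }
    set f : Module.End F V := (Eig x).subtype.comp (φ.comp π) with hf
    have hfc : x * f = f * x := by
      refine LinearMap.ext fun v => ?_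
      have h1 : π (x v) = π v := Subtype.ext (by
        simp only [π, eigProj_coe]
        rw [← Module.End.mul_apply, hx, Module.End.one_apply, add_comm])
      simp [hf, h1, mem_eig.1 (φ (π v)).2]
    have hΦ : Φ f = φ := LinearMap.ext fun w => by
      simp [Φ, hf, π, eigProj_self]
    have := Submodule.mem_map_of_mem (f := Φ) (mem_span_centraliser hD hxR hx hfc)
    rw [hΦ, Submodule.map_span] at this
    refine Submodule.span_mono ?_ this
    rintro _ ⟨r, ⟨hr, hrc⟩, rfl⟩
    refine ⟨r, hr, hrc, fun w => ?_⟩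
    have : π (r w) = resEl x r hrc w := by
      rw [← eigProj_self hD.two_ne x hx (resEl x r hrc w)]; rfl
    simp [Φ, this]

lemma Grp.res [Nontrivial V] [FiniteDimensional F V] (hG : Grp i R G) (hD : Data i R)
    {x : Module.End F V} (hxR : x ∈ R) (hx : x * x = 1) (hns : NS x) :
    Grp i (Res x R) (Res x G) := by
  have := nontrivial_eig hD hxR hx hns
  refine ⟨?_, ?_, ?_, ?_, ?_⟩
  · rintro φ ⟨f, hf, hfc, hφ⟩
    obtain ⟨f', hf', h1, h2⟩ := hG.inv_mem f hf
    have hfc' : x * f' = f' * x := by
      calc x * f' = f' * f * x * f' := by rw [h2, one_mul]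
        _ = f' * x * (f * f') := by rw [mul_assoc f', ← hfc]; noncomm_ring
        _ = f' * x := by rw [h1, mul_one]
    refine ⟨resEl x f' hfc', resEl_mem hf' hfc', ?_, ?_⟩ <;>
      refine LinearMap.ext fun w => Subtype.ext ?_
    · simpa [hφ] using congrArg (fun k : Module.End F V => k w) h1
    · simpa [hφ] using congrArg (fun k : Module.End F V => k w) h2
  · rintro φ ⟨f, hf, hfc, hφ⟩ ψ ⟨g, hg, hgc, hψ⟩
    exact ⟨f * g, hG.mul_mem f hf g hg, by rw [← mul_assoc, hfc, mul_assoc, hgc, mul_assoc],
      fun w => by simp [hφ, hψ]⟩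
  · exact fun c hc => ⟨c • 1, hG.smul_mem c hc, by simp, fun w => by simp⟩
  · rintro φ ⟨f, hf, hfc, hφ⟩
    exact ⟨f, hG.sub hf, hfc, hφ⟩
  · rintro φ ⟨f, hf, hfc, hφ⟩ hsq
    rcases hD.sq_sign f hf with h | h
    · exact ⟨1 + i • f, hG.t_mem f hf h,
        by rw [mul_add, add_mul, mul_smul_comm, smul_mul_assoc, hfc, mul_one, one_mul],
        fun w => by simp [hφ]⟩
    · exfalso
      obtain ⟨w, hw⟩ := exists_ne (0 : Eig x)
      have h' := congrArg (fun k : Module.End F V => k w) h
      have h'' := congrArg (fun k : Module.End F (Eig x) => ((k w : Eig x) : V)) hsq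
      simp [hφ] at h' h''
      rw [h''] at h'
      have h3 : (2 : F) • (w : V) = 0 := by rw [two_smul]; nth_rewrite 1 [h']; simp
      exact hw (Subtype.ext ((smul_eq_zero.1 h3).resolve_left hD.two_ne))

end Cfsg.Agent.MaxSub.CSix
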