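import Cfsg.Agent.MaxSub.CSix.Basic

/-!
Core of the maximality of normalisers of symplectic-type groups: if every conjugate involution
commuting with a non-scalar element of `R` lies in `R`, then the whole group normalises `R`.
-/

set_option autoImplicit false

namespace Cfsg.Agent.MaxSub.CSix

variable {F : Type*} [Field F] {V : Type*} [AddCommGroup V] [Module F V]

/-- An involution commuting with a non-scalar element of `R`, with its quarter turn in `G`,
lies in `R`. -/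
def Fix (i : F) (R G : Set (Module.End F V)) : Prop :=
  ∀ y ∈ G, y * y = 1 → NS y → 1 + i • y ∈ G →
    ∀ b ∈ R, b * b = 1 → NS b → y * b = b * y → y ∈ R

/-- Commutation up to a scalar. -/
def PC (f g : Module.End F V) : Prop := ∃ c : F, f * g = c • (g * f)

/-- The conjugates in `G` of the non-scalar involutions of `R`. -/
def Cls (R G : Set (Module.End F V)) (y : Module.End F V) : Prop :=
  ∃ g ∈ G, ∃ g' ∈ G, g * g' = 1 ∧ g' * g = 1 ∧ ∃ x ∈ R, x * x = 1 ∧ NS x ∧ y = g * x * g'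

/-- A transvection-like element with centre `a`. -/
structure Tv (R G : Set (Module.End F V)) (e a : Module.End F V) : Prop where
  a_mem : a ∈ R
  a_sq : a * a = 1
  a_ns : NS a
  e_mem : e ∈ G
  nrm : Nrm R e
  disp : ∀ r ∈ R, ∃ c : F, e * r = c • (r * e) ∨ e * r = c • (a * r * e)
  moved : ∃ r ∈ R, ∀ c : F, e * r ≠ c • (r * e)

section Ring

variable {M : Type*} [Monoid M]

lemma conj_mul_conj {g g' : M} (h : g' * g = 1) (a b : M) :
    (g * a * g') * (g * b * g') = g * (a * b) * g' := by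
  calc (g * a * g') * (g * b * g') = g * a * (g' * g) * b * g' := by simp only [mul_assoc]
    _ = g * (a * b) * g' := by rw [h, mul_one]; simp only [mul_assoc]

lemma conj_conj {g g' : M} (h : g' * g = 1) (a : M) : g' * (g * a * g') * g = a := by
  calc g' * (g * a * g') * g = (g' * g) * a * (g' * g) := by simp only [mul_assoc]
    _ = a := by rw [h, one_mul, mul_one]

lemma inv_mul_mul {k k' g g' : M} (h1 : k * k' = 1) (h2 : g * g' = 1) :
    (g * k) * (k' * g') = 1 := by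
  calc (g * k) * (k' * g') = g * (k * k') * g' := by simp only [mul_assoc]
    _ = 1 := by rw [h1, mul_one, h2]

lemma anti_mul_left {S : Type*} [Ring S] {p q : S} (h : p * q = -(q * p)) :
    p * q * p = -(p * (p * q)) := by
  rw [mul_assoc, show q * p = -(p * q) by rw [h, neg_neg], mul_neg]

end Ring

namespace PC

variable {f g h : Module.End F V}

lemma mul_right (hg : PC f g) (hh : PC f h) : PC f (g * h) := by
  obtain ⟨c, hc⟩ := hg
  obtain ⟨d, hd⟩ := hh
  refine ⟨c * d, ?_⟩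
  rw [← mul_assoc, hc, smul_mul_assoc, mul_assoc, hd, mul_smul_comm, ← mul_assoc, smul_smul]

lemma smul_right (hg : PC f g) (d : F) : PC f (d • g) := by
  obtain ⟨c, hc⟩ := hg
  exact ⟨c, by rw [mul_smul_comm, hc, smul_mul_assoc, smul_comm]⟩

lemma smul_left (hg : PC f g) (d : F) : PC (d • f) g := by
  obtain ⟨c, hc⟩ := hg
  exact ⟨c, by rw [smul_mul_assoc, hc, mul_smul_comm, smul_comm]⟩

protected lemma refl (f : Module.End F V) : PC f f := ⟨1, (one_smul _ _).symm⟩

lemma one_right (f : Module.End F V) : PC f 1 := ⟨1, by simp⟩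

lemma pow_right (hg : PC f g) (n : ℕ) : PC f (g ^ n) := by
  induction n with
  | zero => simpa using one_right f
  | succ n ih => rw [pow_succ]; exact ih.mul_right hg

lemma conj {k k' : Module.End F V} (hk : k' * k = 1) (hg : PC f g) :
    PC (k * f * k') (k * g * k') := by
  obtain ⟨c, hc⟩ := hg
  exact ⟨c, by rw [conj_mul_conj hk, conj_mul_conj hk, hc, mul_smul_comm, smul_mul_assoc]⟩

lemma symm [Nontrivial V] (hf : IsUnit f) (hg : IsUnit g) (h : PC f g) : PC g f := by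
  obtain ⟨c, hc⟩ := h
  refine ⟨c⁻¹, ?_⟩
  rcases eq_or_ne c 0 with rfl | hc0
  · rw [zero_smul] at hc
    exact absurd hc (hf.mul hg).ne_zero
  · rw [hc, inv_smul_smul₀ hc0]

end PC

variable {i : F} {R G : Set (Module.End F V)}

namespace Data

lemma isUnit_smul (hD : Data i R) {a : Module.End F V} (ha : a ∈ R) {c : F} (hc : c ≠ 0) :
    IsUnit (c • a) := by
  rw [← one_mul a, ← smul_mul_assoc]
  refine IsUnit.mul ?_ (hD.isUnit ha)
  exact ⟨⟨c • 1, c⁻¹ • 1, by simp [smul_smul, hc], by simp [smul_smul, hc]⟩, rfl⟩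

lemma smul_mem_of_sq' [Nontrivial V] (hD : Data i R) {a : Module.End F V} (ha : a ∈ R) {c : F}
    (h : (c • a) * (c • a) = 1 ∨ (c • a) * (c • a) = -1) : c • a ∈ R := by
  rcases h with h | h
  · exact hD.smul_mem_of_sq ha h
  · have : (i * c) • a ∈ R := hD.smul_mem_of_sq ha (by
      rw [mul_smul, hD.i_smul_sq, h, neg_neg])
    have h2 := hD.neg_mem (hD.i_smul_mem this)
    rwa [mul_smul, smul_smul i i, hD.sq_i, neg_one_smul, neg_neg] at h2

lemma ns_of_anticomm [Nontrivial V] (hD : Data i R) {p q : Module.End F V} (hp : p ∈ R)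
    (hq : q ∈ R) (h : q * p = -(p * q)) : NS q :=
  NS.of_anticomm hD.two_ne h ((hD.isUnit hq).mul (hD.isUnit hq)).ne_zero
    (hD.isUnit hp).ne_zero

/-- The centraliser in `R` of a non-scalar involution is not commutative. -/
lemma exists_pair [Nontrivial V] [FiniteDimensional F V] (hD : Data i R)
    (hn : 4 ≤ Module.finrank F V) {x : Module.End F V} (hxR : x ∈ R) (hx : x * x = 1) (hns : NS x) :
    ∃ q₁ ∈ R, ∃ q₂ ∈ R, x * q₁ = q₁ * x ∧ x * q₂ = q₂ * x ∧ q₁ * q₂ = -(q₂ * q₁) := by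
  have := nontrivial_eig hD hxR hx hns
  have hW := hD.res hxR hx
  have h2 := finrank_eig_of_mem hD hxR hx hns
  obtain ⟨φ, hφ, hφns⟩ : ∃ φ ∈ Res x R, NS φ := by
    by_contra hcon
    push Not at hcon
    have hle : Submodule.span F (Res x R) ≤ F ∙ (1 : Module.End F (Eig x)) := by
      refine Submodule.span_le.2 fun φ hφ => ?_
      by_contra h
      exact hcon φ hφ fun c hc => h (hc ▸ Submodule.smul_mem _ c (Submodule.mem_span_singleton_self _))
    rw [hW.span_eq] at hle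
    have h1 : Module.finrank F (⊤ : Submodule F (Module.End F (Eig x))) ≤ 1 :=
      (Submodule.finrank_mono hle).trans (finrank_span_singleton one_ne_zero).le
    rw [finrank_top, Module.finrank_linearMap] at h1
    have h4 : 4 ≤ Module.finrank F (Eig x) * Module.finrank F (Eig x) :=
      le_trans (by norm_num) (Nat.mul_le_mul (show 2 ≤ _ by omega) (show 2 ≤ _ by omega))
    omega
  obtain ⟨ψ, hψ, -, hanti⟩ := hW.exists_anticomm hφ hφns
  obtain ⟨f, hf, hfc, hfφ⟩ := hφ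
  obtain ⟨g, hg, hgc, hgψ⟩ := hψ
  refine ⟨f, hf, g, hg, hfc, hgc, (hD.comm_sign f hf g hg).resolve_left fun h => ?_⟩
  have hcomm : φ * ψ = ψ * φ := LinearMap.ext fun w => Subtype.ext (by
    simpa [hfφ, hgψ] using congrArg (fun k : Module.End F V => k w) h)
  rw [← hcomm, eq_neg_iff_add_eq_zero, ← two_smul F (φ * ψ)] at hanti
  exact ((hW.isUnit ⟨f, hf, hfc, hfφ⟩).mul (hW.isUnit ⟨g, hg, hgc, hgψ⟩)).ne_zero
    ((smul_eq_zero.1 hanti).resolve_left hD.two_ne)

lemma exists_comm_both [Nontrivial V] [FiniteDimensional F V] (hD : Data i R)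
    (hn : 4 ≤ Module.finrank F V) {x : Module.End F V} (hxR : x ∈ R) (hx : x * x = 1) (hns : NS x)
    {a : Module.End F V} (ha : a ∈ R) : ∃ d ∈ R, NS d ∧ x * d = d * x ∧ a * d = d * a := by
  obtain ⟨q₁, hq₁, q₂, hq₂, h₁, h₂, h12⟩ := hD.exists_pair hn hxR hx hns
  rcases hD.comm_sign a ha q₁ hq₁ with e₁ | e₁
  · exact ⟨q₁, hq₁, hD.ns_of_anticomm hq₂ hq₁ h12, h₁, e₁⟩
  rcases hD.comm_sign a ha q₂ hq₂ with e₂ | e₂
  · exact ⟨q₂, hq₂, hD.ns_of_anticomm hq₁ hq₂ (by rw [h12, neg_neg]), h₂, e₂⟩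
  refine ⟨q₁ * q₂, hD.mul_mem _ hq₁ _ hq₂, hD.ns_of_anticomm hq₁ (hD.mul_mem _ hq₁ _ hq₂) ?_,
    by rw [← mul_assoc, h₁, mul_assoc, h₂, mul_assoc], ?_⟩
  · exact anti_mul_left h12
  · rw [← mul_assoc, e₁, neg_mul, mul_assoc, e₂, mul_neg, neg_neg, mul_assoc]

end Data

lemma Nrm.mul {g h : Module.End F V} (hg : Nrm R g) (hh : Nrm R h) : Nrm R (g * h) := by
  intro a ha
  obtain ⟨b, hb, hab⟩ := hh a ha
  obtain ⟨c, hc, hbc⟩ := hg b hb
  exact ⟨c, hc, by rw [mul_assoc, hab, ← mul_assoc, hbc, mul_assoc]⟩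

lemma Nrm.smul {g : Module.End F V} (hg : Nrm R g) (c : F) : Nrm R (c • g) := fun a ha => by
  obtain ⟨b, hb, hab⟩ := hg a ha
  exact ⟨b, hb, by rw [smul_mul_assoc, hab, mul_smul_comm]⟩

lemma nrm_of_mem (hD : Data i R) {r : Module.End F V} (hr : r ∈ R) : Nrm R r := fun a ha => by
  rcases hD.comm_sign r hr a ha with h | h
  · exact ⟨a, ha, h⟩
  · exact ⟨-a, hD.neg_mem ha, by rw [h, neg_mul]⟩

lemma Nrm.conj_mem {g g' : Module.End F V} (hg : Nrm R g) (h : g * g' = 1) {a : Module.End F V}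
    (ha : a ∈ R) : g * a * g' ∈ R := by
  obtain ⟨b, hb, hab⟩ := hg a ha
  rwa [hab, mul_assoc, h, mul_one]

lemma nrm_of_conj_mem {g g' : Module.End F V} (h : g' * g = 1)
    (hm : ∀ a ∈ R, g * a * g' ∈ R) : Nrm R g := fun a ha =>
  ⟨g * a * g', hm a ha, by rw [mul_assoc, h, mul_one]⟩

lemma Nrm.inv [Finite (Module.End F V)] {g g' : Module.End F V} (hg : Nrm R g) (h1 : g * g' = 1)
    (h2 : g' * g = 1) : Nrm R g' := by
  let Φ : R → R := fun a => ⟨g * a.1 * g', hg.conj_mem h1 a.2⟩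
  have hinj : Function.Injective Φ := fun a b hab => by
    have := congrArg (fun c : R => g' * c.1 * g) hab
    exact Subtype.ext (by simpa [Φ, conj_conj h2] using this)
  refine nrm_of_conj_mem h1 fun a ha => ?_
  obtain ⟨b, hb⟩ := (Finite.injective_iff_surjective.1 hinj) ⟨a, ha⟩
  have := congrArg Subtype.val hb
  simp only [Φ] at this
  rw [← this, conj_conj h2]
  exact b.2

namespace Cls

variable {y : Module.End F V}

lemma sq (h : Cls R G y) : y * y = 1 := by
  obtain ⟨g, -, g', -, h1, h2, x, -, hx, -, rfl⟩ := h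
  rw [conj_mul_conj h2, hx, mul_one, h1]

lemma isUnit (h : Cls R G y) : IsUnit y := ⟨⟨y, y, h.sq, h.sq⟩, rfl⟩

lemma ns (h : Cls R G y) : NS y := by
  obtain ⟨g, -, g', -, h1, h2, x, -, -, hns, rfl⟩ := h
  intro c hc
  exact hns c (by rw [← conj_conj h2 x, hc, mul_smul_comm, mul_one, smul_mul_assoc, h2])

lemma mem (hG : Grp i R G) (h : Cls R G y) : y ∈ G := by
  obtain ⟨g, hg, g', hg', -, -, x, hxR, -, -, rfl⟩ := h
  exact hG.mul_mem _ (hG.mul_mem _ hg _ (hG.sub hxR)) _ hg'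

lemma t_mem (hG : Grp i R G) (h : Cls R G y) : 1 + i • y ∈ G := by
  obtain ⟨g, hg, g', hg', h1, -, x, hxR, hx, -, rfl⟩ := h
  have : g * (1 + i • x) * g' = 1 + i • (g * x * g') := by
    rw [mul_add, add_mul, mul_one, h1, mul_smul_comm, smul_mul_assoc]
  exact this ▸ hG.mul_mem _ (hG.mul_mem _ hg _ (hG.t_mem x hxR hx)) _ hg'

lemma conj (hG : Grp i R G) (h : Cls R G y) {k k' : Module.End F V} (hk : k ∈ G) (hk' : k' ∈ G)
    (h1 : k * k' = 1) (h2 : k' * k = 1) : Cls R G (k * y * k') := by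
  obtain ⟨g, hg, g', hg', e1, e2, x, hxR, hx, hns, rfl⟩ := h
  exact ⟨k * g, hG.mul_mem _ hk _ hg, g' * k', hG.mul_mem _ hg' _ hk', inv_mul_mul e1 h1,
    inv_mul_mul h2 e2, x, hxR, hx, hns, by simp only [mul_assoc]⟩

lemma of_mem (hG : Grp i R G) {x : Module.End F V} (hxR : x ∈ R) (hx : x * x = 1) (hns : NS x) :
    Cls R G x :=
  ⟨1, hG.one_mem, 1, hG.one_mem, one_mul 1, one_mul 1, x, hxR, hx, hns, by simp⟩

end Cls

variable [Nontrivial V] [FiniteDimensional F V]

/-- Conjugating one non-scalar involution of `R` into `R` normalises `R`. -/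
lemma nrm_of_conj (hD : Data i R) (hG : Grp i R G) (hF : Fix i R G) (hn : 4 ≤ Module.finrank F V)
    {g g' : Module.End F V} (hg : g ∈ G) (hg' : g' ∈ G) (h1 : g * g' = 1) (h2 : g' * g = 1)
    {x : Module.End F V} (hxR : x ∈ R) (hx : x * x = 1) (hns : NS x) (hgx : g * x * g' ∈ R) :
    Nrm R g := by
  have key : ∀ x ∈ R, x * x = 1 → NS x → g * x * g' ∈ R → ∀ a ∈ R, x * a = a * x →
      g * a * g' ∈ R := by
    intro x hxR hx hns hgx a ha hxa
    by_cases ha' : NS a
    · obtain ⟨c, hc, hcm, hcsq⟩ := hD.exists_sq_one ha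
      have hy : Cls R G (g * (c • a) * g') :=
        ⟨g, hg, g', hg', h1, h2, _, hcm, hcsq, ha'.smul hc, rfl⟩
      have hb : Cls R G (g * x * g') := ⟨g, hg, g', hg', h1, h2, _, hxR, hx, hns, rfl⟩
      have hmem := hF _ (hy.mem hG) hy.sq hy.ns (hy.t_mem hG) _ hgx hb.sq hb.ns (by
        rw [conj_mul_conj h2, conj_mul_conj h2, mul_smul_comm, smul_mul_assoc, hxa])
      have he : g * a * g' = c⁻¹ • (g * (c • a) * g') := by
        rw [mul_smul_comm, smul_mul_assoc, inv_smul_smul₀ hc]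
      rw [he]
      refine hD.smul_mem_of_sq' hmem ?_
      rw [← he, conj_mul_conj h2]
      rcases hD.sq_sign a ha with h | h <;> simp [h, h1]
    · simp only [NS, not_forall, not_not] at ha'
      obtain ⟨c, rfl⟩ := ha'
      rwa [mul_smul_comm, smul_mul_assoc, mul_one, h1]
  refine nrm_of_conj_mem h2 fun a ha => ?_
  obtain ⟨d, hd, hdns, hxd, had⟩ := hD.exists_comm_both hn hxR hx hns ha
  obtain ⟨c, hc, hcm, hcsq⟩ := hD.exists_sq_one hd
  refine key _ hcm hcsq (hdns.smul hc) (key x hxR hx hns hgx _ hcm ?_) a ha ?_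
  · rw [mul_smul_comm, smul_mul_assoc, hxd]
  · rw [mul_smul_comm, smul_mul_assoc, had]

lemma exists_comm_of_anticomm (hD : Data i R) (hn : 4 ≤ Module.finrank F V)
    {y : Module.End F V} (hy : y * y = 1) (hN : Nrm R y) {x : Module.End F V} (hxR : x ∈ R)
    (hx : x * x = 1) (hns : NS x) (hyx : y * x = -(x * y)) :
    ∃ b ∈ R, b * b = 1 ∧ NS b ∧ y * b = b * y := by
  suffices ∃ b ∈ R, NS b ∧ y * b = b * y by
    obtain ⟨b, hb, hbns, hyb⟩ := this
    obtain ⟨c, hc, hcm, hcsq⟩ := hD.exists_sq_one hb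
    exact ⟨c • b, hcm, hcsq, hbns.smul hc, by rw [mul_smul_comm, smul_mul_assoc, hyb]⟩
  -- a fixed or negated element yields a commuting one
  have hsign : ∀ q ∈ R, NS q → NS (q * x) → y * q = q * y ∨ y * q = -(q * y) →
      ∃ b ∈ R, NS b ∧ y * b = b * y := by
    intro q hq hqns hqx h
    rcases h with h | h
    · exact ⟨q, hq, hqns, h⟩
    · exact ⟨q * x, hD.mul_mem _ hq _ hxR, hqx,
        by rw [← mul_assoc, h, neg_mul, mul_assoc, hyx, mul_neg, neg_neg, mul_assoc]⟩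
  have hnsq : ∀ p ∈ R, ∀ q ∈ R, q * p = -(p * q) → x * p = p * x → NS (q * x) := by
    intro p hp q hq h hxp
    refine hD.ns_of_anticomm hp (hD.mul_mem _ hq _ hxR) ?_
    rw [mul_assoc, hxp, ← mul_assoc, h, neg_mul, mul_assoc]
  -- the image of an element, relative to it
  have hstep : ∀ q ∈ R, x * q = q * x → (∃ b ∈ R, NS b ∧ y * b = b * y) ∨
      (∃ c : F, y * q = c • (q * y)) ∨ (∃ c : F, y * q = c • (q * x * y)) := by
    intro q hq hxq
    obtain ⟨q', hq', hyq⟩ := hN q hq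
    have hq'x : q' = y * q * y := by rw [hyq, mul_assoc, hy, mul_one]
    obtain ⟨d, hd, hdm, hdsq⟩ := hD.exists_sq_one hq
    have hqq : ∀ t : Module.End F V, t = (d * d) • (q * (q * t)) := fun t => by
      rw [← mul_assoc, ← smul_mul_assoc, ← smul_mul_smul_comm, hdsq, one_mul]
    by_cases hc1 : NS (q * q')
    · by_cases hc2 : NS (q * q' * x)
      · left
        refine hsign _ (hD.mul_mem _ hq _ hq') hc1 hc2 ?_
        have hyq' : y * q' = q * y := by rw [hq'x, ← mul_assoc, ← mul_assoc, hy, one_mul]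
        have : y * (q * q') = q' * q * y := by
          rw [← mul_assoc, hyq, mul_assoc, hyq', ← mul_assoc]
        rcases hD.comm_sign q hq q' hq' with h | h
        · left; rw [this, h]
        · right; rw [this, h, neg_mul, neg_neg]
      · simp only [NS, not_forall, not_not] at hc2
        obtain ⟨c, hc⟩ := hc2
        refine Or.inr (Or.inr ⟨d * d * c, ?_⟩)
        have : q * q' = c • x := by
          rw [← mul_one (q * q'), ← hx, ← mul_assoc, hc, smul_mul_assoc, one_mul]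
        rw [hyq, hqq q', this, mul_smul_comm, smul_smul, smul_mul_assoc]
    · simp only [NS, not_forall, not_not] at hc1
      obtain ⟨c, hc⟩ := hc1
      refine Or.inr (Or.inl ⟨d * d * c, ?_⟩)
      rw [hyq, hqq q', hc, mul_smul_comm, mul_one, smul_smul, smul_mul_assoc]
  have hfirst : ∀ p ∈ R, ∀ q ∈ R, q * p = -(p * q) → x * p = p * x →
      (∃ c : F, y * q = c • (q * y)) → ∃ b ∈ R, NS b ∧ y * b = b * y := by
    rintro p hp q hq h hxp ⟨c, hc⟩
    refine hsign q hq (hD.ns_of_anticomm hp hq h) (hnsq p hp q hq h hxp) ?_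
    have h' := congrArg (fun t => y * t) hc
    rw [← mul_assoc, hy, one_mul, mul_smul_comm, ← mul_assoc, hc, smul_mul_assoc, mul_assoc, hy,
      mul_one, smul_smul] at h'
    have hne := (hD.isUnit hq).ne_zero
    have : c * c = 1 := smul_left_injective F hne (show (c * c) • q = (1 : F) • q by
      rw [one_smul, ← h'])
    rcases mul_self_eq_one_iff.1 this with rfl | rfl
    · left; simpa using hc
    · right; simpa using hc
  obtain ⟨q₁, hq₁, q₂, hq₂, h₁, h₂, h12⟩ := hD.exists_pair hn hxR hx hns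
  have h21 : q₂ * q₁ = -(q₁ * q₂) := by rw [h12, neg_neg]
  rcases hstep q₁ hq₁ h₁ with h | h | ⟨c₁, hc₁⟩
  · exact h
  · exact hfirst q₂ hq₂ q₁ hq₁ h12 h₂ h
  rcases hstep q₂ hq₂ h₂ with h | h | ⟨c₂, hc₂⟩
  · exact h
  · exact hfirst q₁ hq₁ q₂ hq₂ h21 h₁ h
  refine hfirst q₁ hq₁ (q₁ * q₂) (hD.mul_mem _ hq₁ _ hq₂)
    (anti_mul_left h12) h₁ ⟨c₁ * c₂, ?_⟩
  rw [← mul_assoc, hc₁, smul_mul_assoc, mul_assoc (q₁ * x), hc₂, mul_smul_comm, smul_smul]
  congr 1
  rw [mul_assoc q₁ x, ← mul_assoc x, ← mul_assoc x, h₂, mul_assoc q₂, hx, mul_one, mul_assoc]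

/-- A conjugate involution commuting up to sign with a non-scalar element of `R` lies in `R`. -/
lemma cls_mem (hD : Data i R) (hG : Grp i R G) (hF : Fix i R G) (hn : 4 ≤ Module.finrank F V)
    {y : Module.End F V} (hy : Cls R G y) {b : Module.End F V} (hbR : b ∈ R) (hbns : NS b)
    (h : PC y b) : y ∈ R := by
  obtain ⟨d, hd, hdm, hdsq⟩ := hD.exists_sq_one hbR
  obtain ⟨c, hc⟩ := h.smul_right d
  have hbns' := hbns.smul hd
  set b := d • b
  have h1 : y * b * y = c • b := by rw [hc, smul_mul_assoc, mul_assoc, hy.sq, mul_one]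
  have hsq2 : (c • b) * (c • b) = 1 := by
    rw [← h1, conj_mul_conj hy.sq, hdsq, mul_one, hy.sq]
  rw [smul_mul_smul_comm, hdsq] at hsq2
  have hcc : c * c = 1 := smul_one_inj (V := V) (by rw [hsq2, one_smul])
  rcases mul_self_eq_one_iff.1 hcc with rfl | rfl
  · exact hF _ (hy.mem hG) hy.sq hy.ns (hy.t_mem hG) _ hdm hdsq hbns' (by rw [hc, one_smul])
  · rw [neg_one_smul] at hc h1
    have hN : Nrm R y := nrm_of_conj hD hG hF hn (hy.mem hG) (hy.mem hG) hy.sq hy.sq hdm hdsq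
      hbns' (h1 ▸ hD.neg_mem hdm)
    obtain ⟨b', hb', hb'sq, hb'ns, hyb'⟩ :=
      exists_comm_of_anticomm hD hn hy.sq hN hdm hdsq hbns' hc
    exact hF _ (hy.mem hG) hy.sq hy.ns (hy.t_mem hG) _ hb' hb'sq hb'ns hyb'

/-- The dihedral group generated by an involution and a square root of a scalar. -/
lemma dihedral [Finite (Module.End F V)] (hG : Grp i R G) {x y : Module.End F V} (hxG : x ∈ G)
    (hyG : y ∈ G) (hx : x * x = 1) {μ : F} (hμ : μ ≠ 0) (hy : y * y = μ • 1) :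
    (∃ s ∈ G, ∃ s' ∈ G, s * s' = 1 ∧ s' * s = 1 ∧ (∃ d : F, d ≠ 0 ∧ y * s = d • (s * x)) ∧
      ∀ e, PC e x → PC e y → PC e s) ∨
    (∃ u ∈ G, NS u ∧ (∃ c : F, c ≠ 0 ∧ u * u = c • 1) ∧ PC x u ∧ PC y u ∧
      ∃ k ∈ G, ∃ k' ∈ G, k * k' = 1 ∧ k' * k = 1 ∧
        ∃ d : F, d ≠ 0 ∧ (u * x = d • (k * x * k') ∨ u * x = d • (k * y * k'))) := by
  set h := x * y with hh
  set h' := μ⁻¹ • (y * x) with hh'
  have e1 : h * h' = 1 := by
    rw [hh, hh', mul_smul_comm, mul_assoc, ← mul_assoc y, hy, smul_mul_assoc, one_mul,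
      mul_smul_comm, hx, smul_smul, inv_mul_cancel₀ hμ, one_smul]
  have e2 : h' * h = 1 := by
    rw [hh, hh', smul_mul_assoc, mul_assoc, ← mul_assoc x, hx, one_mul, hy, smul_smul,
      inv_mul_cancel₀ hμ, one_smul]
  have hcomm : Commute h h' := e1.trans e2.symm
  have hhG : h ∈ G := hG.mul_mem _ hxG _ hyG
  have hh'G : h' ∈ G := hG.smul_mem' (inv_ne_zero hμ) (hG.mul_mem _ hyG _ hxG)
  have epow : ∀ j : ℕ, h ^ j * h' ^ j = 1 := fun j => by rw [← hcomm.mul_pow, e1, one_pow]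
  have epow' : ∀ j : ℕ, h' ^ j * h ^ j = 1 := fun j => by rw [← hcomm.symm.mul_pow, e2, one_pow]
  -- `x` inverts `h` up to scalars
  have hxh : ∀ j : ℕ, x * h ^ j = μ ^ j • (h' ^ j * x) := by
    intro j
    induction j with
    | zero => simp
    | succ j ih =>
        have h1 : x * h = μ • (h' * x) := by
          rw [hh', smul_mul_assoc, smul_smul, mul_inv_cancel₀ hμ, one_smul, hh, ← mul_assoc, hx,
            one_mul, mul_assoc, hx, mul_one]
        rw [pow_succ, ← mul_assoc, ih, smul_mul_assoc, mul_assoc, h1, mul_smul_comm, smul_smul,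
          ← mul_assoc, ← pow_succ, ← pow_succ]
  have hyx : y = x * h := by rw [hh, ← mul_assoc, hx, one_mul]
  -- the projective order
  obtain ⟨k, hk0, ⟨c, hkc⟩, hmin⟩ : ∃ k, 0 < k ∧ (∃ c : F, h ^ k = c • 1) ∧
      ∀ l, l < k → 0 < l → ∀ c : F, h ^ l ≠ c • 1 := by
    classical
    have hex : ∃ k, 0 < k ∧ ∃ c : F, h ^ k = c • 1 := by
      obtain ⟨a, b, hab, heq⟩ := Finite.exists_ne_map_eq_of_infinite (fun n : ℕ => h ^ n)
      wlog hlt : a < b generalizing a b
      · exact this b a hab.symm heq.symm (lt_of_le_of_ne (not_lt.1 hlt) hab.symm)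
      refine ⟨b - a, Nat.sub_pos_of_lt hlt, 1, ?_⟩
      have : h' ^ a * h ^ b = h ^ (b - a) := by
        rw [show b = a + (b - a) by omega, pow_add, ← mul_assoc, epow', one_mul,
          show a + (b - a) - a = b - a by omega]
      rw [one_smul, ← this, show h ^ b = h ^ a from heq.symm, epow']
    refine ⟨Nat.find hex, (Nat.find_spec hex).1, (Nat.find_spec hex).2, fun l hl h0 c hc => ?_⟩
    exact Nat.find_min hex hl ⟨h0, c, hc⟩
  have hc0 : c ≠ 0 := by
    rintro rfl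
    rw [zero_smul] at hkc
    exact ((hG.isUnit hhG).pow k).ne_zero hkc
  rcases Nat.even_or_odd k with ⟨l, hl⟩ | ⟨j, hj⟩
  · refine Or.inr ⟨h ^ l, hG.pow_mem hhG l, fun d => hmin l (by omega) (by omega) d,
      ⟨c, hc0, by rw [← pow_add, ← hl, hkc]⟩, ?_⟩
    have hinv : h' ^ l = c⁻¹ • h ^ l := by
      calc h' ^ l = h' ^ l * (c⁻¹ • h ^ k) := by
            rw [hkc, smul_smul, inv_mul_cancel₀ hc0, one_smul, mul_one]
        _ = c⁻¹ • h ^ l := by
            rw [hl, pow_add, mul_smul_comm, ← mul_assoc, epow', one_mul]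
    have hxu : x * h ^ l = (μ ^ l * c⁻¹) • (h ^ l * x) := by
      rw [hxh, hinv, smul_mul_assoc, smul_smul]
    refine ⟨⟨_, hxu⟩, ⟨μ ^ l * c⁻¹, ?_⟩, ?_⟩
    · rw [hyx, mul_assoc, ← pow_succ', pow_succ, ← mul_assoc, hxu, smul_mul_assoc, mul_assoc]
    have hxh' : ∀ m : ℕ, h ^ m * x = μ ^ m • (x * h' ^ m) := by
      intro m
      calc h ^ m * x = x * (x * h ^ m) * x := by rw [← mul_assoc, hx, one_mul]
        _ = μ ^ m • (x * h' ^ m) := by
            rw [hxh, mul_smul_comm, smul_mul_assoc, mul_assoc, mul_assoc, hx, mul_one]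
    rcases Nat.even_or_odd l with ⟨m, hm⟩ | ⟨m, hm⟩
    · refine ⟨h ^ m, hG.pow_mem hhG m, h' ^ m, hG.pow_mem hh'G m, epow m, epow' m, μ ^ m,
        pow_ne_zero m hμ, Or.inl ?_⟩
      calc h ^ l * x = h ^ m * (h ^ m * x) := by rw [hm, pow_add, mul_assoc]
        _ = μ ^ m • (h ^ m * x * h' ^ m) := by
            conv_lhs => rw [hxh', mul_smul_comm, ← mul_assoc]
    · refine ⟨h ^ m * x, hG.mul_mem _ (hG.pow_mem hhG m) _ hxG, x * h' ^ m,
        hG.mul_mem _ hxG _ (hG.pow_mem hh'G m), inv_mul_mul hx (epow m),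
        inv_mul_mul (epow' m) hx, μ ^ m, pow_ne_zero m hμ, Or.inr ?_⟩
      calc h ^ l * x = h ^ m * (h * (h ^ m * x)) := by
            rw [show l = m + 1 + m by omega, pow_add, pow_succ]; simp only [mul_assoc]
        _ = μ ^ m • (h ^ m * x * y * (x * h' ^ m)) := by
            conv_lhs => rw [hxh', mul_smul_comm, mul_smul_comm]
            simp only [hh, mul_assoc]
  · refine Or.inl ⟨h ^ j, hG.pow_mem hhG j, h' ^ j, hG.pow_mem hh'G j, epow j, epow' j, ?_,
      fun e hex hey => (hex.mul_right hey).pow_right j⟩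
    have hinv : h ^ (j + 1) = c • h' ^ j := by
      calc h ^ (j + 1) = h ^ (j + 1) * (h ^ j * h' ^ j) := by rw [epow, mul_one]
        _ = c • h' ^ j := by
            rw [← mul_assoc, ← pow_add, show j + 1 + j = k by omega, hkc, smul_mul_assoc, one_mul]
    refine ⟨c * (μ ^ j)⁻¹, mul_ne_zero hc0 (inv_ne_zero (pow_ne_zero j hμ)), ?_⟩
    have h3 : x * h' ^ j = (μ ^ j)⁻¹ • (h ^ j * x) := by
      calc x * h' ^ j = x * (h' ^ j * x) * x := by rw [mul_assoc, mul_assoc, hx, mul_one]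
        _ = (μ ^ j)⁻¹ • (h ^ j * x) := by
            rw [← inv_smul_smul₀ (pow_ne_zero j hμ) (h' ^ j * x), ← hxh, mul_smul_comm,
              smul_mul_assoc, ← mul_assoc, hx, one_mul]
    rw [hyx, mul_assoc, ← pow_succ', hinv, mul_smul_comm, h3, smul_smul]

lemma Tv.pc_centre (hD : Data i R) (hG : Grp i R G) {e a : Module.End F V} (hT : Tv R G e a) :
    PC e a := by
  obtain ⟨c, h | h⟩ := hT.disp a hT.a_mem
  · exact ⟨c, h⟩
  · refine absurd ?_ (hT.a_ns c)
    obtain ⟨e', -, -, h2⟩ := hG.inv_mem e hT.e_mem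
    rw [hT.a_sq, one_mul] at h
    rw [← one_mul a, ← h2, mul_assoc, h, mul_smul_comm]

lemma Tv.mul_right (hD : Data i R) (hG : Grp i R G) {e a x : Module.End F V} (hT : Tv R G e a)
    (hx : x ∈ R) : Tv R G (e * x) a := by
  have key : ∀ r ∈ R, ∀ t : Module.End F V, ∀ c : F, e * r = c • (t * e) →
      ∃ c' : F, e * x * r = c' • (t * (e * x)) := by
    intro r hr t c h
    rcases hD.comm_sign x hx r hr with hs | hs
    · exact ⟨c, by rw [mul_assoc, hs, ← mul_assoc, h, smul_mul_assoc, mul_assoc]⟩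
    · exact ⟨-c, by rw [mul_assoc, hs, mul_neg, ← mul_assoc, h, smul_mul_assoc, mul_assoc,
        neg_smul]⟩
  refine ⟨hT.a_mem, hT.a_sq, hT.a_ns, hG.mul_mem _ hT.e_mem _ (hG.sub hx),
    hT.nrm.mul (nrm_of_mem hD hx), fun r hr => ?_, ?_⟩
  · obtain ⟨c, h | h⟩ := hT.disp r hr
    · exact (key r hr r c h).imp fun c' h' => Or.inl h'
    · exact (key r hr (a * r) c h).imp fun c' h' => Or.inr h'
  · obtain ⟨r, hr, hmv⟩ := hT.moved
    refine ⟨r, hr, fun c h => ?_⟩
    rcases hD.comm_sign x hx r hr with hs | hs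
    · refine hmv c ((hD.isUnit hx).mul_left_inj.1 ?_)
      rw [mul_assoc, ← hs, ← mul_assoc, h, smul_mul_assoc, mul_assoc]
    · refine hmv (-c) ((hD.isUnit hx).mul_left_inj.1 ?_)
      rw [mul_assoc, show r * x = -(x * r) by rw [hs, neg_neg], mul_neg, ← mul_assoc, h,
        smul_mul_assoc, mul_assoc, neg_smul]

lemma Tv.exists_second (hD : Data i R) (hn : 4 ≤ Module.finrank F V) {e a : Module.End F V}
    (hT : Tv R G e a) : ∃ x ∈ R, x * x = 1 ∧ NS x ∧ (∀ c : F, x ≠ c • a) ∧ PC e x := by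
  suffices ∃ x ∈ R, NS x ∧ (∀ c : F, x ≠ c • a) ∧ PC e x by
    obtain ⟨x, hx, hns, hxa, hp⟩ := this
    obtain ⟨d, hd, hdm, hdsq⟩ := hD.exists_sq_one hx
    refine ⟨d • x, hdm, hdsq, hns.smul hd, fun c hc => hxa (d⁻¹ * c) ?_, hp.smul_right d⟩
    rw [mul_smul, ← hc, inv_smul_smul₀ hd]
  obtain ⟨q₁, hq₁, q₂, hq₂, h₁, h₂, h12⟩ := hD.exists_pair hn hT.a_mem hT.a_sq hT.a_ns
  have good : ∀ p ∈ R, ∀ q ∈ R, q * p = -(p * q) → a * p = p * a → PC e q →
      ∃ x ∈ R, NS x ∧ (∀ c : F, x ≠ c • a) ∧ PC e x := by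
    intro p hp q hq h hap hq'
    refine ⟨q, hq, hD.ns_of_anticomm hp hq h, fun c hc => ?_, hq'⟩
    subst hc
    rw [smul_mul_assoc, hap, mul_smul_comm, eq_neg_iff_add_eq_zero, ← two_smul F, smul_smul] at h
    rcases smul_eq_zero.1 h with h | h
    · rcases mul_eq_zero.1 h with h | h
      · exact hD.two_ne h
      · subst h
        rw [zero_smul] at hq
        exact (hD.isUnit hq).ne_zero rfl
    · exact ((hD.isUnit hp).mul (hD.isUnit hT.a_mem)).ne_zero h
  have h21 : q₂ * q₁ = -(q₁ * q₂) := by rw [h12, neg_neg]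
  obtain ⟨c₁, e₁ | e₁⟩ := hT.disp q₁ hq₁
  · exact good q₂ hq₂ q₁ hq₁ h12 h₂ ⟨c₁, e₁⟩
  obtain ⟨c₂, e₂ | e₂⟩ := hT.disp q₂ hq₂
  · exact good q₁ hq₁ q₂ hq₂ h21 h₁ ⟨c₂, e₂⟩
  refine good q₁ hq₁ (q₁ * q₂) (hD.mul_mem _ hq₁ _ hq₂)
    (anti_mul_left h12) h₁ ⟨c₁ * c₂, ?_⟩
  rw [← mul_assoc, e₁, smul_mul_assoc, mul_assoc (a * q₁), e₂, mul_smul_comm, smul_smul]
  congr 1
  calc a * q₁ * (a * q₂ * e) = a * (q₁ * a) * (q₂ * e) := by simp only [mul_assoc]
    _ = (a * a) * (q₁ * q₂ * e) := by rw [← h₁]; simp only [mul_assoc]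
    _ = q₁ * q₂ * e := by rw [hT.a_sq, one_mul]

variable [Finite (Module.End F V)]

/-- A conjugate involution commuting up to a scalar with a transvection-like element is in `R`. -/
lemma star (hD : Data i R) (hG : Grp i R G) (hF : Fix i R G) (hn : 4 ≤ Module.finrank F V)
    {e a : Module.End F V} (hT : Tv R G e a) {y : Module.End F V} (hy : Cls R G y)
    (hey : PC e y) : y ∈ R := by
  by_contra hyR
  have hswap : ∀ x ∈ R, x * x = 1 → NS x → PC e x → ∃ s ∈ G, ∃ s' ∈ G, s * s' = 1 ∧ s' * s = 1 ∧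
      (∃ d : F, d ≠ 0 ∧ y * s = d • (s * x)) ∧ PC e s := by
    intro x hxR hx hns hex
    rcases dihedral hG (hG.sub hxR) (hy.mem hG) hx one_ne_zero (by rw [hy.sq, one_smul]) with
      ⟨s, hs, s', hs', h1, h2, hd, hpc⟩ |
      ⟨u, hu, huns, -, hxu, hyu, k, hk, k', hk', h1, h2, d, hd, hz⟩
    · exact ⟨s, hs, s', hs', h1, h2, hd, hpc e hex hey⟩
    exfalso
    obtain ⟨z, hzc, hz⟩ : ∃ z, Cls R G z ∧ u * x = d • z := by
      rcases hz with hz | hz
      · exact ⟨_, (Cls.of_mem hG hxR hx hns).conj hG hk hk' h1 h2, hz⟩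
      · exact ⟨_, hy.conj hG hk hk' h1 h2, hz⟩
    have hzR : z ∈ R := by
      refine cls_mem hD hG hF hn hzc hxR hns (PC.symm (hD.isUnit hxR) hzc.isUnit ?_)
      have := (hxu.mul_right (PC.refl x)).smul_right d⁻¹
      rwa [hz, inv_smul_smul₀ hd] at this
    have hue : u = d • (z * x) := by
      rw [← mul_one u, ← hx, ← mul_assoc, hz, smul_mul_assoc]
    refine hyR (cls_mem hD hG hF hn hy (hD.mul_mem _ hzR _ hxR) (fun c hc => ?_) ?_)
    · exact huns (d * c) (by rw [hue, hc, smul_smul])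
    · have := hyu.smul_right d⁻¹
      rwa [hue, inv_smul_smul₀ hd] at this
  obtain ⟨x, hxR, hx, hxns, hxa, hex⟩ := hT.exists_second hD hn
  obtain ⟨s₁, hs₁, s₁', hs₁', a1, a2, ⟨d₁, hd₁, hy₁⟩, he₁⟩ :=
    hswap a hT.a_mem hT.a_sq hT.a_ns (hT.pc_centre hD hG)
  obtain ⟨s₂, hs₂, s₂', hs₂', b1, b2, ⟨d₂, hd₂, hy₂⟩, he₂⟩ := hswap x hxR hx hxns hex
  set σ := s₂' * s₁ with hσ
  set σ' := s₁' * s₂ with hσ'
  have c1 : σ * σ' = 1 := inv_mul_mul a1 b2
  have c2 : σ' * σ = 1 := inv_mul_mul b1 a2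
  have hσG : σ ∈ G := hG.mul_mem _ hs₂' _ hs₁
  have hσ'G : σ' ∈ G := hG.mul_mem _ hs₁' _ hs₂
  have hσa : σ * a = (d₁⁻¹ * d₂) • (x * σ) := by
    have h1 : s₂' * y = d₂ • (x * s₂') := by
      calc s₂' * y = s₂' * (y * s₂) * s₂' := by rw [mul_assoc, mul_assoc, b1, mul_one]
        _ = d₂ • (x * s₂') := by
            rw [hy₂, mul_smul_comm, smul_mul_assoc, ← mul_assoc, b2, one_mul]
    rw [hσ, mul_assoc, ← inv_smul_smul₀ hd₁ (s₁ * a), ← hy₁, mul_smul_comm, ← mul_assoc, h1,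
      smul_mul_assoc, smul_smul, mul_assoc]
  have hσaR : σ * a * σ' ∈ R := by
    have hc : Cls R G (σ * a * σ') :=
      (Cls.of_mem hG hT.a_mem hT.a_sq hT.a_ns).conj hG hσG hσ'G c1 c2
    have he : σ * a * σ' = (d₁⁻¹ * d₂) • x := by
      rw [hσa, smul_mul_assoc, mul_assoc, c1, mul_one]
    rw [he]
    exact hD.smul_mem_of_sq hxR (by rw [← he, hc.sq])
  have hNσ : Nrm R σ :=
    nrm_of_conj hD hG hF hn hσG hσ'G c1 c2 hT.a_mem hT.a_sq hT.a_ns hσaR
  have heσ : PC e σ := by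
    refine PC.mul_right ?_ he₁
    obtain ⟨c, hc⟩ := he₂
    have hc0 : c ≠ 0 := by
      rintro rfl
      rw [zero_smul] at hc
      exact ((hG.isUnit hT.e_mem).mul (hG.isUnit hs₂)).ne_zero hc
    refine ⟨c⁻¹, ?_⟩
    have hse : s₂ * e = c⁻¹ • (e * s₂) := by rw [hc, inv_smul_smul₀ hc0]
    calc e * s₂' = s₂' * (s₂ * e) * s₂' := by rw [← mul_assoc, b2, one_mul]
      _ = c⁻¹ • (s₂' * e) := by
          rw [hse, mul_smul_comm, smul_mul_assoc, mul_assoc, mul_assoc, b1, mul_one]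
  obtain ⟨r₀, hr₀, hmv⟩ := hT.moved
  obtain ⟨c₀, h₀ | h₀⟩ := hT.disp r₀ hr₀
  · exact hmv c₀ h₀
  obtain ⟨r₁, hr₁, hσr⟩ := hNσ r₀ hr₀
  obtain ⟨κ, hκ⟩ := heσ
  have hκ0 : κ ≠ 0 := by
    rintro rfl
    rw [zero_smul] at hκ
    exact ((hG.isUnit hT.e_mem).mul (hG.isUnit hσG)).ne_zero hκ
  have hσe : σ * e = κ⁻¹ • (e * σ) := by rw [hκ, inv_smul_smul₀ hκ0]
  have key : e * r₁ = (c₀ * (d₁⁻¹ * d₂)) • (x * r₁ * e) := by
    refine (hG.isUnit hσG).mul_left_inj.1 ?_
    calc e * r₁ * σ = e * σ * r₀ := by rw [mul_assoc e r₁, ← hσr, mul_assoc e σ]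
      _ = (κ * c₀) • (σ * a * r₀ * e) := by
          rw [hκ, smul_mul_assoc, mul_assoc σ e r₀, h₀, mul_smul_comm, smul_smul, ← mul_assoc,
            ← mul_assoc]
      _ = (κ * c₀ * (d₁⁻¹ * d₂)) • (x * r₁ * (σ * e)) := by
          rw [hσa, smul_mul_assoc, smul_mul_assoc, smul_smul, mul_assoc x σ r₀, hσr]
          simp only [mul_assoc]
      _ = ((c₀ * (d₁⁻¹ * d₂)) • (x * r₁ * e)) * σ := by
          rw [hσe, mul_smul_comm, smul_smul, smul_mul_assoc, mul_assoc _ e σ]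
          congr 1
          field_simp
  have hne : c₀ * (d₁⁻¹ * d₂) ≠ 0 := by
    intro h
    rw [h, zero_smul] at key
    exact ((hG.isUnit hT.e_mem).mul (hD.isUnit hr₁)).ne_zero key
  obtain ⟨c, h | h⟩ := hT.disp r₁ hr₁ <;> rw [key] at h
  · rw [← smul_mul_assoc _ (x * r₁) e, ← smul_mul_assoc _ r₁ e] at h
    have h' := (hG.isUnit hT.e_mem).mul_left_inj.1 h
    rw [← smul_mul_assoc _ x r₁] at h'
    refine (hxns.smul hne) c ((hD.isUnit hr₁).mul_left_inj.1 ?_)
    rw [h', smul_mul_assoc, one_mul]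
  · rw [← smul_mul_assoc _ (x * r₁) e, ← smul_mul_assoc _ (a * r₁) e] at h
    have h' := (hG.isUnit hT.e_mem).mul_left_inj.1 h
    rw [← smul_mul_assoc _ x r₁, ← smul_mul_assoc _ a r₁] at h'
    refine hxa ((c₀ * (d₁⁻¹ * d₂))⁻¹ * c) ?_
    rw [mul_smul, ← (hD.isUnit hr₁).mul_left_inj.1 h', inv_smul_smul₀ hne]

/-- The element `(1 + i a) d` for anticommuting involutions of `R`. -/
lemma exists_tv (hD : Data i R) (hG : Grp i R G) (hn : 4 ≤ Module.finrank F V) :
    ∃ e a, Tv R G e a ∧ e * e = (2 : F) • 1 := by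
  obtain ⟨a₀, ha₀, hns₀⟩ : ∃ a ∈ R, NS a := by
    by_contra hcon
    push Not at hcon
    have hle : Submodule.span F R ≤ F ∙ (1 : Module.End F V) := Submodule.span_le.2 fun a ha => by
      by_contra h
      exact hcon a ha fun c hc =>
        h (hc ▸ Submodule.smul_mem _ c (Submodule.mem_span_singleton_self _))
    rw [hD.span_eq] at hle
    have h1 : Module.finrank F (⊤ : Submodule F (Module.End F V)) ≤ 1 :=
      (Submodule.finrank_mono hle).trans (finrank_span_singleton one_ne_zero).le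
    rw [finrank_top, Module.finrank_linearMap] at h1
    have : 16 ≤ Module.finrank F V * Module.finrank F V :=
      le_trans (by norm_num) (Nat.mul_le_mul hn hn)
    omega
  obtain ⟨a, haR, ha, hns⟩ : ∃ a ∈ R, a * a = 1 ∧ NS a := by
    obtain ⟨t, ht, haR, ha⟩ := hD.exists_sq_one ha₀
    exact ⟨_, haR, ha, hns₀.smul ht⟩
  obtain ⟨d, hdR, hd, had⟩ := hD.exists_anticomm haR hns
  set T := 1 + i • a with hTdef
  have hTG : T ∈ G := hG.t_mem a haR ha
  have hTu : IsUnit T := hG.isUnit hTG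
  have hiaia : (i • a) * (i • a) = -1 := by rw [hD.i_smul_sq, ha]
  have hTT : T * (1 - i • a) = (2 : F) • 1 := by
    rw [hTdef, mul_sub, mul_one, add_mul, one_mul, hiaia, two_smul]
    abel
  have hTd : ∀ r : Module.End F V, a * r = -(r * a) → r * T = (1 - i • a) * r := by
    intro r hr
    rw [hTdef, mul_add, mul_one, sub_mul, one_mul, mul_smul_comm, smul_mul_assoc, hr, smul_neg,
      sub_neg_eq_add]
  have hTc : ∀ r : Module.End F V, a * r = r * a → r * T = T * r := by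
    intro r hr
    rw [hTdef, mul_add, mul_one, add_mul, one_mul, mul_smul_comm, smul_mul_assoc, hr]
  have hTa : ∀ r : Module.End F V, a * r = -(r * a) → T * r = (i • (a * r)) * T := by
    intro r hr
    have h1 : a * r * a = -r := by rw [hr, neg_mul, mul_assoc, ha, mul_one]
    rw [hTdef, add_mul, one_mul, smul_mul_assoc, mul_add, mul_one, mul_smul_comm, smul_mul_assoc,
      h1, smul_smul, hD.sq_i, neg_one_smul, neg_neg, add_comm]
  have hee : T * d * (T * d) = (2 : F) • 1 := by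
    rw [mul_assoc, ← mul_assoc d, hTd d had, mul_assoc (1 - i • a), hd, mul_one, hTT]
  have hTnrm : Nrm R T := by
    intro r hr
    rcases hD.comm_sign a haR r hr with h | h
    · exact ⟨r, hr, (hTc r h).symm⟩
    · exact ⟨i • (a * r), hD.i_smul_mem (hD.mul_mem _ haR _ hr), hTa r h⟩
  have hbase : Tv R G T a := by
    refine ⟨haR, ha, hns, hTG, hTnrm, fun r hr => ?_, d, hdR, fun c h => ?_⟩
    · rcases hD.comm_sign a haR r hr with h | h
      · exact ⟨1, Or.inl (by rw [one_smul, (hTc r h)])⟩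
      · exact ⟨i, Or.inr (by rw [hTa r h, smul_mul_assoc, mul_assoc])⟩
    · rw [hTa d had, ← smul_mul_assoc c d T] at h
      have h' := hTu.mul_left_inj.1 h
      refine hns (i⁻¹ * c) ((hD.isUnit hdR).mul_left_inj.1 ?_)
      rw [smul_mul_assoc, one_mul, mul_smul, ← h', inv_smul_smul₀ hD.i_ne]
  exact ⟨T * d, a, hbase.mul_right hD hG hdR, hee⟩

/-- The core theorem. -/
theorem normalises (hD : Data i R) (hG : Grp i R G) (hF : Fix i R G)
    (hn : 4 ≤ Module.finrank F V) {g : Module.End F V} (hgG : g ∈ G) : Nrm R g := by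
  by_contra hgN
  obtain ⟨g', hg'G, h1, h2⟩ := hG.inv_mem g hgG
  obtain ⟨e, a, hT, hee⟩ := exists_tv hD hG hn
  set f := g * e * g' with hf
  have hfG : f ∈ G := hG.mul_mem _ (hG.mul_mem _ hgG _ hT.e_mem) _ hg'G
  have hff : f * f = (2 : F) • 1 := by
    rw [hf, conj_mul_conj h2, hee, mul_smul_comm, smul_mul_assoc, mul_one, h1]
  rcases dihedral hG (hG.sub hT.a_mem) hfG hT.a_sq hD.two_ne hff with
    ⟨s, hs, s', hs', s1, s2, ⟨d, hd, hds⟩, -⟩ |
    ⟨u, hu, huns, ⟨cu, hcu, huu⟩, hau, hfu, k, hk, k', hk', k1, k2, d, hd, hz⟩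
  · -- `e` would be a multiple of an element of `R`
    have hfe : f = d • (s * a * s') := by
      rw [← smul_mul_assoc, ← hds, mul_assoc, s1, mul_one]
    have hy : Cls R G (g' * (s * a * s') * g) :=
      ((Cls.of_mem hG hT.a_mem hT.a_sq hT.a_ns).conj hG hs hs' s1 s2).conj hG hg'G hgG h2 h1
    have he : e = d • (g' * (s * a * s') * g) := by
      rw [← smul_mul_assoc, ← mul_smul_comm, ← hfe, hf, conj_conj h2]
    have hyR : g' * (s * a * s') * g ∈ R := by
      refine cls_mem hD hG hF hn hy hT.a_mem hT.a_ns ?_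
      have := (hT.pc_centre hD hG).smul_left d⁻¹
      rwa [he, inv_smul_smul₀ hd] at this
    obtain ⟨r, hr, hmv⟩ := hT.moved
    rcases hD.comm_sign _ hyR r hr with h | h
    · exact hmv 1 (by rw [he, smul_mul_assoc, h, one_smul, mul_smul_comm])
    · exact hmv (-1) (by rw [he, smul_mul_assoc, h, neg_one_smul, mul_smul_comm, smul_neg])
  have hua : PC a (d⁻¹ • (u * a)) := (hau.mul_right (PC.refl a)).smul_right _
  rcases hz with hz | hz
  · -- `u` would be a multiple of an element of `R`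
    rw [hz, inv_smul_smul₀ hd] at hua
    have hzc : Cls R G (k * a * k') :=
      (Cls.of_mem hG hT.a_mem hT.a_sq hT.a_ns).conj hG hk hk' k1 k2
    have hzR := cls_mem hD hG hF hn hzc hT.a_mem hT.a_ns
      (PC.symm (hD.isUnit hT.a_mem) hzc.isUnit hua)
    have hue : u = d • (k * a * k' * a) := by
      rw [← mul_one u, ← hT.a_sq, ← mul_assoc, hz, smul_mul_assoc]
    obtain ⟨t, ht, htm, htsq⟩ := hD.exists_sq_one (hD.mul_mem _ hzR _ hT.a_mem)
    have htns : NS (t • (k * a * k' * a)) := by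
      refine NS.smul (fun c hc => huns (d * c) ?_) ht
      rw [hue, hc, smul_smul]
    have hfr : PC f (t • (k * a * k' * a)) := by
      have := hfu.smul_right (t * d⁻¹)
      rwa [hue, smul_smul, mul_assoc, inv_mul_cancel₀ hd, mul_one] at this
    have hy : Cls R G (g' * (t • (k * a * k' * a)) * g) :=
      (Cls.of_mem hG htm htsq htns).conj hG hg'G hgG h2 h1
    have hey := hfr.conj (k := g') (k' := g) h1
    rw [hf, conj_conj h2] at hey
    have hyR := star hD hG hF hn hT hy hey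
    exact hgN ((nrm_of_conj hD hG hF hn hg'G hgG h2 h1 htm htsq htns hyR).inv h2 h1)
  · rw [hz, inv_smul_smul₀ hd] at hua
    set K := k * g with hK
    set K' := g' * k' with hK'
    have K1 : K * K' = 1 := inv_mul_mul h1 k1
    have K2 : K' * K = 1 := inv_mul_mul k2 h2
    have hKG : K ∈ G := hG.mul_mem _ hk _ hgG
    have hK'G : K' ∈ G := hG.mul_mem _ hg'G _ hk'
    have hzK : k * f * k' = K * e * K' := by rw [hf, hK, hK']; simp only [mul_assoc]
    have hxc : Cls R G (K' * a * K) :=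
      (Cls.of_mem hG hT.a_mem hT.a_sq hT.a_ns).conj hG hK'G hKG K2 K1
    have hexc : PC (K' * a * K) e := by
      have := hua.conj (k := K') (k' := K) K1
      rwa [hzK, conj_conj K2] at this
    have hxR : K' * a * K ∈ R :=
      star hD hG hF hn hT hxc (PC.symm hxc.isUnit (hG.isUnit hT.e_mem) hexc)
    have hK'N : Nrm R K' :=
      nrm_of_conj hD hG hF hn hK'G hKG K2 K1 hT.a_mem hT.a_sq hT.a_ns hxR
    have hKN : Nrm R K := hK'N.inv K2 K1
    have hue : u = d • (K * (e * (K' * a * K)) * K') := by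
      calc u = u * a * a := by rw [mul_assoc, hT.a_sq, mul_one]
        _ = d • (K * e * K' * a * (K * K')) := by
            rw [hz, hzK, K1, mul_one, smul_mul_assoc]
        _ = d • (K * (e * (K' * a * K)) * K') := by simp only [mul_assoc]
    have hT' := hT.mul_right hD hG hxR
    -- `v = g' u g` normalises `R`
    set v := g' * u * g with hv
    have hev : PC e v := by
      have := hfu.conj (k := g') (k' := g) h1
      rwa [hf, conj_conj h2] at this
    have hvG : v ∈ G := hG.mul_mem _ (hG.mul_mem _ hg'G _ hu) _ hgG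
    have hvv : v * v = cu • 1 := by
      rw [hv, conj_mul_conj h1, huu, mul_smul_comm, smul_mul_assoc, mul_one, h2]
    set v' := cu⁻¹ • v with hv'
    have v1 : v * v' = 1 := by rw [hv', mul_smul_comm, hvv, inv_smul_smul₀ hcu]
    have v2 : v' * v = 1 := by rw [hv', smul_mul_assoc, hvv, inv_smul_smul₀ hcu]
    have hv'G : v' ∈ G := hG.smul_mem' (inv_ne_zero hcu) hvG
    have ha1 : Cls R G (v * a * v') :=
      (Cls.of_mem hG hT.a_mem hT.a_sq hT.a_ns).conj hG hvG hv'G v1 v2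
    have hva : v * a * v' ∈ R := star hD hG hF hn hT ha1
      ((hev.mul_right (hT.pc_centre hD hG)).mul_right (hev.smul_right _))
    have hvN : Nrm R v := nrm_of_conj hD hG hF hn hvG hv'G v1 v2 hT.a_mem hT.a_sq hT.a_ns hva
    obtain ⟨b, hbR, hbsq, hbns, hvb⟩ : ∃ b ∈ R, b * b = 1 ∧ NS b ∧ PC v b := by
      suffices ∃ b ∈ R, NS b ∧ PC v b by
        obtain ⟨b, hb, hbns, hvb⟩ := this
        obtain ⟨c, hc, hcm, hcsq⟩ := hD.exists_sq_one hb
        exact ⟨c • b, hcm, hcsq, hbns.smul hc, hvb.smul_right c⟩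
      obtain ⟨q, hq, hvq⟩ := hvN a hT.a_mem
      by_cases hc : NS (a * q)
      · refine ⟨_, hD.mul_mem _ hT.a_mem _ hq, hc, ?_⟩
        have hvq' : v * q = a * v := by
          calc v * q = v * (q * v) * v' := by rw [← mul_assoc v q, mul_assoc (v * q), v1, mul_one]
            _ = a * v := by
                rw [← hvq, ← mul_assoc, hvv, smul_mul_assoc, one_mul, smul_mul_assoc, hv',
                  mul_smul_comm, smul_smul, mul_inv_cancel₀ hcu, one_smul]
        have : v * (a * q) = q * a * v := by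
          rw [← mul_assoc, hvq, mul_assoc, hvq', ← mul_assoc]
        rcases hD.comm_sign a hT.a_mem q hq with h | h
        · exact ⟨1, by rw [this, h, one_smul]⟩
        · exact ⟨-1, by rw [this, h, neg_one_smul, neg_mul, neg_neg]⟩
      · simp only [NS, not_forall, not_not] at hc
        obtain ⟨c, hc⟩ := hc
        refine ⟨a, hT.a_mem, hT.a_ns, c, ?_⟩
        have : q = c • a := by
          rw [← one_mul q, ← hT.a_sq, mul_assoc, hc, mul_smul_comm, mul_one]
        rw [hvq, this, smul_mul_assoc]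
    have hgb : Cls R G (g * b * g') :=
      (Cls.of_mem hG hbR hbsq hbns).conj hG hgG hg'G h1 h2
    have hub : PC (K * (e * (K' * a * K)) * K') (g * b * g') := by
      have := (hvb.conj (k := g) (k' := g') h2).smul_left d⁻¹
      rwa [hv, conj_conj h1, hue, inv_smul_smul₀ hd] at this
    have hr : K' * (g * b * g') * K ∈ R := by
      refine star hD hG hF hn hT' (hgb.conj hG hK'G hKG K2 K1) ?_
      have := hub.conj (k := K') (k' := K) K1
      rwa [conj_conj K2] at this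
    have hgbR : g * b * g' ∈ R := by
      have := hKN.conj_mem K1 hr
      rwa [conj_conj K1] at this
    exact hgN (nrm_of_conj hD hG hF hn hgG hg'G h1 h2 hbR hbsq hbns hgbR)

end Cfsg.Agent.MaxSub.CSix
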