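import Cfsg.Agent.MaxSub.CSix.Core

/-!
If the restrictions of `G` to the eigenspaces of the involutions of `R` normalise the restricted
symplectic-type groups, then `Fix` holds.
-/

set_option autoImplicit false

namespace Cfsg.Agent.MaxSub.CSix

variable {F : Type*} [Field F] {V : Type*} [AddCommGroup V] [Module F V]

/-- The only field-specific input: a group of `2 × 2` matrices containing the scalars, an element
of order four and an element of order three with orthogonal axes swaps the axes of the first. -/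
def Antidiag (i : F) : Prop :=
  ∀ H : Subgroup (GL (Fin 2) F),
    (∀ g : GL (Fin 2) F, (∃ c : F, (g : Matrix (Fin 2) (Fin 2) F) = c • 1) → g ∈ H) →
    (∀ g : GL (Fin 2) F, (g : Matrix (Fin 2) (Fin 2) F) = !![1, 0; 0, i] → g ∈ H) →
    (∀ g : GL (Fin 2) F, (g : Matrix (Fin 2) (Fin 2) F) = !![1, 3; -1, 1] → g ∈ H) →
    ∃ g ∈ H, (g : Matrix (Fin 2) (Fin 2) F) 0 0 = 0 ∧ (g : Matrix (Fin 2) (Fin 2) F) 1 1 = 0

variable {i : F} {R G : Set (Module.End F V)}

lemma Data.exists_eq_smul_of_sign [Nontrivial V] [Finite (Module.End F V)] (hD : Data i R)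
    {u : Module.End F V} (hu : u ≠ 0)
    (h : ∀ b ∈ R, b * u = u * b ∨ b * u = -(u * b)) : ∃ c : F, ∃ r ∈ R, u = c • r := by
  classical
  have key : ∀ L : Finset (Module.End F V), (↑L : Set (Module.End F V)) ⊆ R →
      u ∈ Submodule.span F {r | r ∈ R ∧ ∀ b ∈ L, (b * u = u * b → b * r = r * b) ∧
        (b * u = -(u * b) → b * r = -(r * b))} := by
    intro L
    induction L using Finset.induction_on with
    | empty => intro _; simpa using (hD.span_eq ▸ Submodule.mem_top : u ∈ Submodule.span F R)
    | insert b L hbL ih =>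
        intro hL
        rw [Finset.coe_insert, Set.insert_subset_iff] at hL
        obtain ⟨hb, hL⟩ := hL
        obtain ⟨c, hc, hcm, hcsq⟩ := hD.exists_sq_one hb
        -- a linear map killing the elements with the wrong sign and doubling the others
        obtain ⟨ε, hε, hbu⟩ : ∃ ε : F, (ε = 1 ∨ ε = -1) ∧ b * u = ε • (u * b) := by
          rcases h b hb with e | e
          · exact ⟨1, Or.inl rfl, by rw [e, one_smul]⟩
          · exact ⟨-1, Or.inr rfl, by rw [e, neg_one_smul]⟩
        have hεε : ε * ε = 1 := by rcases hε with rfl | rfl <;> norm_num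
        let Φ : Module.End F V →ₗ[F] Module.End F V :=
          LinearMap.id + ε • ((LinearMap.mulLeft F (c • b)).comp (LinearMap.mulRight F (c • b)))
        have hΦ : ∀ g, Φ g = g + ε • ((c • b) * (g * (c • b))) := fun g => rfl
        have hsandwich : ∀ (g : Module.End F V) (δ : F), b * g = δ • (g * b) →
            (c • b) * (g * (c • b)) = δ • g := by
          intro g δ hg
          calc (c • b) * (g * (c • b)) = (c * c) • ((b * g) * b) := by
                simp only [mul_smul_comm, smul_mul_assoc, smul_smul, mul_assoc]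
            _ = δ • (g * ((c * c) • (b * b))) := by
                rw [hg, smul_mul_assoc, mul_assoc, mul_smul_comm, smul_comm]
            _ = δ • g := by rw [← smul_mul_smul_comm, hcsq, mul_one]
        have hu2 : Φ u = (2 : F) • u := by
          rw [hΦ, hsandwich u ε hbu, smul_smul, hεε, one_smul, two_smul]
        have hmem := Submodule.mem_map_of_mem (f := Φ) (ih hL)
        rw [Submodule.map_span, hu2] at hmem
        have h2 := Submodule.smul_mem _ (2 : F)⁻¹ hmem
        rw [smul_smul, inv_mul_cancel₀ hD.two_ne, one_smul] at h2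
        refine Submodule.span_le.2 ?_ h2
        rintro _ ⟨r, ⟨hr, hrL⟩, rfl⟩
        obtain ⟨δ, hδ, hbr⟩ : ∃ δ : F, (δ = 1 ∨ δ = -1) ∧ b * r = δ • (r * b) := by
          rcases hD.comm_sign b hb r hr with e | e
          · exact ⟨1, Or.inl rfl, by rw [e, one_smul]⟩
          · exact ⟨-1, Or.inr rfl, by rw [e, neg_one_smul]⟩
        have hr2 : Φ r = (1 + ε * δ) • r := by
          rw [hΦ, hsandwich r δ hbr, smul_smul, add_smul, one_smul]
        rw [SetLike.mem_coe, hr2]
        by_cases hδε : δ = ε
        · refine Submodule.smul_mem _ _ (Submodule.subset_span ⟨hr, fun b' hb' => ?_⟩)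
          rcases Finset.mem_insert.1 hb' with rfl | hb'
          · subst hδε
            constructor <;> intro e <;> rw [hbu] at e <;> rcases hε with rfl | rfl
            · rw [hbr, one_smul]
            · exfalso
              rw [neg_one_smul, neg_eq_iff_add_eq_zero, ← two_smul F] at e
              exact hu ((hD.isUnit hb).mul_left_eq_zero.1
                ((smul_eq_zero.1 e).resolve_left hD.two_ne))
            · exfalso
              rw [one_smul, eq_neg_iff_add_eq_zero, ← two_smul F] at e
              exact hu ((hD.isUnit hb).mul_left_eq_zero.1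
                ((smul_eq_zero.1 e).resolve_left hD.two_ne))
            · rw [hbr, neg_one_smul]
          · exact hrL b' hb'
        · have : ε * δ = -1 := by
            rcases hε with rfl | rfl <;> rcases hδ with rfl | rfl <;> simp_all
          rw [this, add_neg_cancel, zero_smul]
          exact Submodule.zero_mem _
  have := Fintype.ofFinite (Module.End F V)
  have hspan := key (R.toFinset) (by simp)
  obtain ⟨r, hr, hrs⟩ : ∃ r ∈ R, ∀ b ∈ R, (b * u = u * b → b * r = r * b) ∧
      (b * u = -(u * b) → b * r = -(r * b)) := by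
    by_contra hcon
    refine hu ?_
    rw [show {r | r ∈ R ∧ ∀ b ∈ R.toFinset, (b * u = u * b → b * r = r * b) ∧
        (b * u = -(u * b) → b * r = -(r * b))} = ∅ from Set.eq_empty_iff_forall_notMem.2
          fun r hr => hcon ⟨r, hr.1, fun b hb => hr.2 b (by simpa using hb)⟩,
      Submodule.span_empty, Submodule.mem_bot] at hspan
    exact hspan
  obtain ⟨c, hc, hcm, hcsq⟩ := hD.exists_sq_one hr
  obtain ⟨d, hd⟩ := hD.scalar_of_commute (f := (c • r) * u) fun b hb => by
    rcases h b hb with e | e
    · rw [mul_assoc, ← e, smul_mul_assoc, smul_mul_assoc, ← mul_assoc, ← (hrs b hb).1 e,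
        mul_assoc, mul_smul_comm]
    · rw [mul_assoc, show u * b = -(b * u) by rw [e, neg_neg], mul_neg, smul_mul_assoc,
        smul_mul_assoc, ← mul_assoc, show r * b = -(b * r) by rw [(hrs b hb).2 e, neg_neg],
        neg_mul, smul_neg, neg_neg, mul_assoc, mul_smul_comm]
  refine ⟨d * c, r, hr, ?_⟩
  rw [← one_mul u, ← hcsq, mul_assoc, hd, mul_smul_comm, mul_one, smul_smul]

/-- If `1 + i y` normalises `R`, the involution `y` is a multiple of an element of `R`. -/
lemma mem_of_quarter_nrm [Nontrivial V] [Finite (Module.End F V)] (hD : Data i R)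
    {y : Module.End F V} (hy : y * y = 1) (hN : Nrm R (1 + i • y)) : y ∈ R := by
  set w := 1 + i • y with hw
  have hww : w * w = (2 * i) • y := by
    rw [hw, mul_add, mul_one, add_mul, one_mul, hD.i_smul_sq, hy, mul_smul, two_smul]
    abel
  have h2i : 2 * i ≠ 0 := mul_ne_zero hD.two_ne hD.i_ne
  have hNy : Nrm R y := by
    have := (hN.mul hN).smul (2 * i)⁻¹
    rwa [hww, inv_smul_smul₀ h2i] at this
  have hsign : ∀ b ∈ R, b * y = y * b ∨ b * y = -(y * b) := by
    suffices ∀ b ∈ R, b * b = 1 → b * y = y * b ∨ b * y = -(y * b) by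
      intro b hb
      obtain ⟨c, hc, hcm, hcsq⟩ := hD.exists_sq_one hb
      refine (this _ hcm hcsq).imp (fun e => ?_) (fun e => ?_)
      · rw [smul_mul_assoc, mul_smul_comm] at e
        exact smul_right_injective _ hc e
      · rw [smul_mul_assoc, mul_smul_comm, ← smul_neg] at e
        exact smul_right_injective _ hc e
    intro b hb hbb
    set y' := b * y * b with hy'
    have hy'y' : y' * y' = 1 := by rw [hy', conj_mul_conj hbb, hy, mul_one, hbb]
    set s := y * y' with hs
    have hsR : s ∈ R := by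
      have : y * b * y ∈ R := hNy.conj_mem hy hb
      have h2 := hD.mul_mem _ this _ hb
      simpa [hs, hy', mul_assoc] using h2
    have hys : y * s = y' := by rw [hs, ← mul_assoc, hy, one_mul]
    have hsy' : s * y' = y := by rw [hs, mul_assoc, hy'y', mul_one]
    -- the commutator of `w` and `b`
    set r₀ := (2 : F)⁻¹ • (w * (1 - i • y')) with hr₀
    have hr₀R : r₀ ∈ R := by
      have hww' : w * ((2 : F)⁻¹ • (1 - i • y)) = 1 := by
        rw [hw, mul_smul_comm, mul_sub, mul_one, add_mul, one_mul, hD.i_smul_sq, hy]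
        rw [show (1 + i • y - (i • y + -1) : Module.End F V) = (2 : F) • 1 by
          rw [two_smul]; abel, inv_smul_smul₀ hD.two_ne]
      have h1 := hN.conj_mem hww' hb
      have h2 := hD.mul_mem _ h1 _ hb
      convert h2 using 1
      rw [hr₀, mul_smul_comm, smul_mul_assoc, mul_assoc w b, mul_assoc w]
      congr 2
      rw [mul_sub, mul_one, sub_mul, hbb, mul_smul_comm, smul_mul_assoc, hy']
    set A := i • y - i • y' with hA
    have hrA : (2 : F) • r₀ = 1 + A + s := by
      rw [hr₀, smul_inv_smul₀ hD.two_ne, hw, hA, hs, mul_sub, mul_one, add_mul, one_mul,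
        smul_mul_smul_comm, hD.sq_i, neg_one_smul]
      abel
    rcases hD.sq_sign s hsR with hss | hss
    · have hcomm : y' * y = s := by
        calc y' * y = (s * s) * (y' * y) := by rw [hss, one_mul]
          _ = s * ((s * y') * y) := by simp only [mul_assoc]
          _ = s := by rw [hsy', hy, mul_one]
      have hAA : A * A = (2 : F) • s - (2 : F) • 1 := by
        simp only [hA, mul_sub, sub_mul, smul_mul_smul_comm, hD.sq_i, hy, hy'y', hcomm, ← hs,
          neg_one_smul, two_smul]
        abel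
      have hAs : A * s = -A := by
        rw [hA, sub_mul, smul_mul_assoc, smul_mul_assoc, hys, show y' * s = y by
          rw [← hcomm, ← mul_assoc, hy'y', one_mul], neg_sub]
      have hsA : s * A = -A := by
        rw [hA, mul_sub, mul_smul_comm, mul_smul_comm, hsy', show s * y = y' by
          rw [← hcomm, mul_assoc, hy, mul_one], neg_sub]
      have hsq : ((2 : F) • r₀) * ((2 : F) • r₀) = (4 : F) • s := by
        rw [hrA]
        have : (1 + A + s) * (1 + A + s) = 1 + A * A + s * s + A * s + s * A + (A + A) + (s + s) := by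
          noncomm_ring
        rw [this, hAA, hss, hAs, hsA, show (4 : F) = 2 + 2 by norm_num, add_smul, two_smul,
          two_smul]
        abel
      rw [smul_mul_smul_comm, show (2 : F) * 2 = 4 by norm_num] at hsq
      have h4 : (4 : F) ≠ 0 := by
        rw [show (4 : F) = 2 * 2 by norm_num]; exact mul_ne_zero hD.two_ne hD.two_ne
      have hs1 := smul_right_injective _ h4 hsq
      rcases hD.sq_sign r₀ hr₀R with e | e <;> rw [e] at hs1
      · left
        have : y' = y := by rw [← hys, ← hs1, mul_one]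
        calc b * y = b * y * (b * b) := by rw [hbb, mul_one]
          _ = y * b := by rw [← mul_assoc, ← hy', this]
      · right
        have : y' = -y := by rw [← hys, ← hs1, mul_neg, mul_one]
        calc b * y = b * y * (b * b) := by rw [hbb, mul_one]
          _ = -(y * b) := by rw [← mul_assoc, ← hy', this, neg_mul]
    · exfalso
      have hanti : y' * y = -s := by
        calc y' * y = -(s * s) * (y' * y) := by rw [hss, neg_neg, one_mul]
          _ = -(s * ((s * y') * y)) := by simp only [neg_mul, mul_assoc]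
          _ = -s := by rw [hsy', hy, mul_one]
      have hy's : y' * s = -y := by
        rw [← neg_neg s, ← hanti, mul_neg, ← mul_assoc, hy'y', one_mul]
      have hsy : s * y = -y' := by
        rw [← neg_neg s, ← hanti, neg_mul, mul_assoc, hy, mul_one]
      have hAA : A * A = -((2 : F) • 1) := by
        simp only [hA, mul_sub, sub_mul, smul_mul_smul_comm, hD.sq_i, hy, hy'y', hanti, ← hs,
          neg_one_smul, two_smul]
        abel
      have hAs : A * s + s * A = 0 := by
        rw [hA, sub_mul, mul_sub, smul_mul_assoc, smul_mul_assoc, mul_smul_comm, mul_smul_comm,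
          hys, hy's, hsy, hsy', smul_neg, smul_neg]
        abel
      have hsq : ((2 : F) • r₀) * ((2 : F) • r₀) = (2 : F) • (A + s) - (2 : F) • 1 := by
        rw [hrA]
        have : (1 + A + s) * (1 + A + s) = 1 + A * A + s * s + (A * s + s * A) + (A + A) + (s + s) := by
          noncomm_ring
        rw [this, hAA, hss, hAs, two_smul, two_smul]
        abel
      obtain ⟨c, hc⟩ : ∃ c : F, (2 : F) • (A + s) = c • 1 := by
        rw [smul_mul_smul_comm] at hsq
        rcases hD.sq_sign r₀ hr₀R with e | e <;> rw [e] at hsq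
        · exact ⟨2 * 2 + 2, by rw [add_smul, hsq]; abel⟩
        · refine ⟨-(2 * 2) + 2, ?_⟩
          rw [add_smul, neg_smul, ← smul_neg, hsq]; abel
      have h1 : s * (A + s) = (A + s) * s := by
        have : (2 : F) • (s * (A + s)) = (2 : F) • ((A + s) * s) := by
          rw [← mul_smul_comm, ← smul_mul_assoc, hc, mul_smul_comm, smul_mul_assoc, mul_one,
            one_mul]
        exact smul_right_injective _ hD.two_ne this
      rw [mul_add, add_mul, add_left_inj] at h1
      rw [← h1, ← two_smul F] at hAs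
      have hA0 : A = 0 := (hD.isUnit hsR).mul_right_eq_zero.1
        ((smul_eq_zero.1 hAs).resolve_left hD.two_ne)
      rw [hA0, zero_mul, eq_comm, neg_eq_zero] at hAA
      exact hD.two_ne ((smul_eq_zero.1 hAA).resolve_right one_ne_zero)
  have hy0 : y ≠ 0 := fun h0 => by simp [h0] at hy
  obtain ⟨c, r, hr, rfl⟩ := hD.exists_eq_smul_of_sign hy0 hsign
  exact hD.smul_mem_of_sq hr hy

lemma mul_self_sum_eq_neg_three (hD : Data i R) {b c : Module.End F V} (hb : b * b = 1)
    (hc : c * c = 1) (hbc : b * c = -(c * b)) :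
    (i • c - i • b + c * b) * (i • c - i • b + c * b) = -(3 : F) • 1 := by
  have h1 : b * (c * b) = -c := by rw [← mul_assoc, hbc, neg_mul, mul_assoc, hb, mul_one]
  have h2 : c * b * b = c := by rw [mul_assoc, hb, mul_one]
  have h3 : c * (c * b) = b := by rw [← mul_assoc, hc, one_mul]
  have h4 : c * b * c = -b := by rw [mul_assoc, hbc, mul_neg, h3]
  have h5 : c * b * (c * b) = -1 := by rw [← mul_assoc, h4, neg_mul, hb]
  simp only [mul_add, mul_sub, add_mul, sub_mul, smul_mul_smul_comm, smul_mul_assoc, mul_smul_comm,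
    hD.sq_i, hb, hc, hbc, h1, h2, h3, h4, h5, smul_neg]
  match_scalars <;> simp [hD.sq_i] <;> ring

section Block

variable (u E₀ E₁ : Module.End F V)

/-- The embedding of `2 × 2` matrices given by two idempotents and a swapping element. -/
def blockMap (M : Matrix (Fin 2) (Fin 2) F) : Module.End F V :=
  M 0 0 • E₀ + M 1 1 • E₁ + M 1 0 • (u * E₀) + (M 0 1 * (-3 : F)⁻¹) • (u * E₁)

lemma blockMap_mul {u E₀ E₁ : Module.End F V} (h3 : (3 : F) ≠ 0) (hu : u * u = -(3 : F) • 1)
    (h00 : E₀ * E₀ = E₀) (h11 : E₁ * E₁ = E₁) (h01 : E₀ * E₁ = 0) (h10 : E₁ * E₀ = 0)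
    (h0u : E₀ * u = u * E₁) (h1u : E₁ * u = u * E₀) (M N : Matrix (Fin 2) (Fin 2) F) :
    blockMap u E₀ E₁ (M * N) = blockMap u E₀ E₁ M * blockMap u E₀ E₁ N := by
  have e0u : ∀ t, E₀ * (u * t) = u * (E₁ * t) := fun t => by rw [← mul_assoc, h0u, mul_assoc]
  have e1u : ∀ t, E₁ * (u * t) = u * (E₀ * t) := fun t => by rw [← mul_assoc, h1u, mul_assoc]
  have euu : ∀ t, u * (u * t) = -(3 : F) • t := fun t => by
    rw [← mul_assoc, hu, smul_mul_assoc, one_mul]
  simp only [blockMap, Matrix.mul_apply, Fin.sum_univ_two, mul_add, add_mul, smul_mul_smul_comm,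
    mul_assoc, e0u, e1u, euu, h00, h11, h01, h10, mul_zero, smul_zero, smul_smul]
  have h3' : -(3 : F) ≠ 0 := neg_ne_zero.2 h3
  match_scalars <;> field_simp <;> ring

end Block

variable [Nontrivial V] [FiniteDimensional F V] [Finite (Module.End F V)]

/-- The controlled rotation of order three is not in `G`. -/
lemma no_controlled (hD : Data i R) (hG : Grp i R G) (hGood : Good R G) (hA : Antidiag i)
    (h3 : (3 : F) ≠ 0) {x b c : Module.End F V} (hxR : x ∈ R) (hx : x * x = 1) (hns : NS x)
    (hbR : b ∈ R) (hcR : c ∈ R) (hb : b * b = 1) (hc : c * c = 1) (hbc : b * c = -(c * b))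
    (hxb : x * b = b * x) (hxc : x * c = c * x) {e : Module.End F V} (heG : e ∈ G)
    (he1 : ∀ v ∈ Eig x, e v = v)
    (he2 : ∀ v ∈ Eig (-x), e v = (2 : F)⁻¹ • ((1 + i • c) * (1 - i • b)) v) : False := by
  set A := i • c - i • b + c * b with hA'
  have hAA : A * A = -(3 : F) • 1 := mul_self_sum_eq_neg_three hD hb hc hbc
  have hcomA : ∀ t, t * b = b * t → t * c = c * t → t * A = A * t := by
    intro t h1 h2
    simp only [hA', mul_add, mul_sub, add_mul, sub_mul, mul_smul_comm, smul_mul_assoc, h1, h2,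
      ← mul_assoc]
    rw [mul_assoc c t b, h1, ← mul_assoc]
  -- an involution anticommuting with `x` and commuting with `b`, `c`
  obtain ⟨a, haR, ha, hxa, hab, hac⟩ : ∃ a ∈ R, a * a = 1 ∧ x * a = -(a * x) ∧
      a * b = b * a ∧ a * c = c * a := by
    suffices ∃ a ∈ R, x * a = -(a * x) ∧ a * b = b * a ∧ a * c = c * a by
      obtain ⟨a, haR, h1, h2, h3⟩ := this
      obtain ⟨d, hd, hdm, hdsq⟩ := hD.exists_sq_one haR
      exact ⟨d • a, hdm, hdsq, by rw [mul_smul_comm, h1, smul_mul_assoc, smul_neg],
        by rw [smul_mul_assoc, h2, mul_smul_comm], by rw [smul_mul_assoc, h3, mul_smul_comm]⟩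
    obtain ⟨a, haR, -, hxa⟩ := hD.exists_anticomm hxR hns
    have hcb : c * b = -(b * c) := by rw [hbc, neg_neg]
    have push : ∀ q, x * q = q * x → x * (a * q) = -(a * q * x) := fun q hq => by
      rw [← mul_assoc, hxa, neg_mul, mul_assoc, hq, ← mul_assoc]
    rcases hD.comm_sign a haR b hbR with e1 | e1 <;> rcases hD.comm_sign a haR c hcR with e2 | e2
    · exact ⟨a, haR, hxa, e1, e2⟩
    · refine ⟨a * b, hD.mul_mem _ haR _ hbR, push b hxb, ?_, ?_⟩
      · rw [← mul_assoc, e1]
      · rw [mul_assoc, hbc, mul_neg, ← mul_assoc, e2, neg_mul, neg_neg, mul_assoc]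
    · refine ⟨a * c, hD.mul_mem _ haR _ hcR, push c hxc, ?_, ?_⟩
      · rw [mul_assoc, hcb, mul_neg, ← mul_assoc, e1, neg_mul, neg_neg, mul_assoc]
      · rw [← mul_assoc, e2]
    · refine ⟨a * (b * c), hD.mul_mem _ haR _ (hD.mul_mem _ hbR _ hcR),
        push _ (by rw [← mul_assoc, hxb, mul_assoc, hxc, mul_assoc]), ?_, ?_⟩
      · rw [mul_assoc, mul_assoc b c b, hcb, mul_neg, mul_neg, ← mul_assoc a b, e1, neg_mul,
          neg_neg, mul_assoc]
      · rw [mul_assoc, mul_assoc b c c, hc, mul_one, ← mul_assoc c a, show c * a = -(a * c) by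
          rw [e2, neg_neg], neg_mul, mul_assoc a c, ← mul_assoc c b c, hcb, neg_mul,
          mul_assoc b c c, hc, mul_one, mul_neg, neg_neg]
  have hxA := hcomA x hxb hxc
  have haA := hcomA a hab hac
  set P := (2 : F)⁻¹ • (1 + x) with hP
  set Q := (2 : F)⁻¹ • (1 - x) with hQ
  have hPQ1 : P + Q = 1 := by
    rw [hP, hQ, ← smul_add, show (1 + x + (1 - x) : Module.End F V) = (2 : F) • 1 by
      rw [two_smul]; abel, inv_smul_smul₀ hD.two_ne]
  have hQP : Q * P = 0 := by
    rw [hP, hQ, smul_mul_smul_comm, sub_mul, one_mul, mul_add, mul_one, hx]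
    simp [add_comm]
  have hPQ : P * Q = 0 := by
    rw [hP, hQ, smul_mul_smul_comm, add_mul, one_mul, mul_sub, mul_one, hx]
    simp
  have hPP : P * P = P := by
    have := congrArg (P * ·) hPQ1
    simpa [mul_add, hPQ] using this
  have hQQ : Q * Q = Q := by
    have := congrArg (Q * ·) hPQ1
    simpa [mul_add, hQP] using this
  set h := (2 : F)⁻¹ • (1 + A) with hh
  set h' := (2 : F)⁻¹ • (1 - A) with hh'
  have hhh : h * h' = 1 := by
    rw [hh, hh', smul_mul_smul_comm, add_mul, one_mul, mul_sub, mul_one, hAA]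
    have : (1 : Module.End F V) - A + (A - -(3 : F) • 1) = ((2 : F) * 2) • 1 := by
      match_scalars <;> ring
    rw [this, smul_smul, ← mul_inv, inv_mul_cancel₀ (mul_ne_zero hD.two_ne hD.two_ne), one_smul]
  have hPh : P * h' = h' * P := by
    simp only [hP, hh', smul_mul_smul_comm, add_mul, mul_add, mul_sub, sub_mul, one_mul, mul_one,
      hxA]
    abel
  have hQh : Q * h = h * Q := by
    simp only [hQ, hh, smul_mul_smul_comm, add_mul, mul_add, mul_sub, sub_mul, one_mul, mul_one,
      hxA]
    abel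
  have hah : a * h' = h' * a := by
    simp only [hh', smul_mul_assoc, mul_smul_comm, mul_sub, sub_mul, one_mul, mul_one, haA]
  have haPa : a * P * a = Q := by
    rw [hP, hQ, mul_smul_comm, smul_mul_assoc, mul_add, mul_one, add_mul, ha, mul_assoc, hxa,
      mul_neg, ← mul_assoc, ha, one_mul, sub_eq_add_neg]
  have haQa : a * Q * a = P := by
    rw [← haPa]
    simp only [mul_assoc]
    rw [ha, mul_one, ← mul_assoc, ha, one_mul]
  have heq : e = P + h * Q := by
    refine LinearMap.ext fun v => ?_
    have hxx : x (x v) = v := by simpa using congrArg (fun k : Module.End F V => k v) hx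
    have h1 : e (P v) = P v := he1 _ (mem_eig.2 (by
      simp [hP, map_smul, map_add, hxx, add_comm]))
    have h2 : e (Q v) = h (Q v) := by
      rw [he2 _ (mem_eig.2 (by simp [hQ, map_smul, map_sub, hxx, sub_eq_add_neg, add_comm,
        ← smul_neg])), hh, LinearMap.smul_apply]
      congr 2
      rw [hA', add_mul, one_mul, smul_mul_assoc, mul_sub, mul_one, mul_smul_comm, smul_sub,
        smul_smul, hD.sq_i, neg_one_smul]
      abel
    calc e v = e ((P + Q) v) := by rw [hPQ1, Module.End.one_apply]
      _ = _ := by simp [h1, h2]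
  -- the rotation `(1 - x A) / 2`
  obtain ⟨e', he'G, ee1, ee2⟩ := hG.inv_mem e heG
  have he' : e' = P + h' * Q := by
    refine (left_inv_eq_right_inv ee2 ?_).trans rfl
    rw [heq, add_mul, mul_add, mul_add, hPP, ← mul_assoc P, hPh, mul_assoc h' P, hPQ, mul_zero,
      mul_assoc h Q P, hQP, mul_zero, add_zero, zero_add, ← mul_assoc (h * Q), mul_assoc h Q h',
      show Q * h' = h' * Q by
        simp only [hQ, hh', smul_mul_smul_comm, mul_sub, sub_mul, one_mul, mul_one, hxA]; abel,
      ← mul_assoc h, hhh, one_mul, hQQ, hPQ1]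
  set D := a * e' * a * e with hD'
  have hDG : D ∈ G := hG.mul_mem _ (hG.mul_mem _ (hG.mul_mem _ (hG.sub haR) _ he'G) _
    (hG.sub haR)) _ heG
  have hDeq : D = (2 : F)⁻¹ • (1 - x * A) := by
    have h1 : a * e' * a = Q + h' * P := by
      rw [he', mul_add, add_mul, haPa, ← mul_assoc a h', hah, mul_assoc h' a, mul_assoc h',
        haQa]
    rw [hD', h1, heq, add_mul, mul_add, mul_add, hQP, ← mul_assoc Q h, hQh, mul_assoc h Q, hQQ,
      mul_assoc h' P P, hPP, mul_assoc h' P, ← mul_assoc P h, show P * h = h * P by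
        simp only [hP, hh, smul_mul_smul_comm, mul_add, add_mul, one_mul, mul_one, hxA]; abel,
      mul_assoc h P, hPQ, mul_zero, mul_zero, add_zero, zero_add]
    have hh4 : (4 : F)⁻¹ * 2 = (2 : F)⁻¹ := by
      rw [show (4 : F) = 2 * 2 by norm_num, mul_inv, inv_mul_cancel_right₀ hD.two_ne]
    simp only [hh, hh', hP, hQ, smul_mul_smul_comm, add_mul, sub_mul, mul_add, mul_sub, one_mul,
      mul_one, hxA]
    match_scalars <;> field_simp <;> (try ring_nf) <;> first | linear_combination hh4 | linear_combination -hh4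
  -- the commutant algebra
  set d := i • (x * a) with hd
  have hdR : d ∈ R := hD.i_smul_mem (hD.mul_mem _ hxR _ haR)
  have hdd : d * d = 1 := by
    rw [hd, hD.i_smul_sq, mul_assoc, ← mul_assoc a x a, show a * x = -(x * a) by
      rw [hxa, neg_neg], neg_mul, mul_assoc, ha, mul_one, mul_neg, hx, neg_neg]
  have hxd : x * d = -(d * x) := by
    rw [hd, mul_smul_comm, smul_mul_assoc, ← smul_neg, mul_assoc x a x, show a * x = -(x * a) by
      rw [hxa, neg_neg], mul_neg, neg_neg]
  have hdns : NS d := hD.ns_of_anticomm hxR hdR (by rw [hxd, neg_neg])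
  have hdb : d * b = b * d := by
    rw [hd, smul_mul_assoc, mul_smul_comm, mul_assoc, hab, ← mul_assoc, hxb, mul_assoc]
  have hdc : d * c = c * d := by
    rw [hd, smul_mul_assoc, mul_smul_comm, mul_assoc, hac, ← mul_assoc, hxc, mul_assoc]
  have hdA := hcomA d hdb hdc
  set u := x * A with hu
  have huu : u * u = -(3 : F) • 1 := by
    rw [hu, mul_assoc, ← mul_assoc A x, ← hxA, mul_assoc x A A, ← mul_assoc, hx, one_mul, hAA]
  have hdu : d * u = -(u * d) := by
    rw [hu, ← mul_assoc, show d * x = -(x * d) by rw [hxd, neg_neg], neg_mul, mul_assoc, hdA,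
      ← mul_assoc]
  set E₀ := (2 : F)⁻¹ • (1 + d) with hE₀
  set E₁ := (2 : F)⁻¹ • (1 - d) with hE₁
  have h4 : (2 : F)⁻¹ * (2 : F)⁻¹ * 2 = (2 : F)⁻¹ := inv_mul_cancel_right₀ hD.two_ne _
  have h00 : E₀ * E₀ = E₀ := by
    have e : (1 + d) * (1 + d) = (2 : F) • (1 + d) := by
      rw [two_smul]
      calc (1 + d) * (1 + d) = 1 + d + d + d * d := by noncomm_ring
        _ = _ := by rw [hdd]; abel
    rw [hE₀, smul_mul_smul_comm, e, smul_smul, h4]
  have h11 : E₁ * E₁ = E₁ := by
    have e : (1 - d) * (1 - d) = (2 : F) • (1 - d) := by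
      rw [two_smul]
      calc (1 - d) * (1 - d) = 1 - d - d + d * d := by noncomm_ring
        _ = _ := by rw [hdd]; abel
    rw [hE₁, smul_mul_smul_comm, e, smul_smul, h4]
  have h01 : E₀ * E₁ = 0 := by
    simp only [hE₀, hE₁, smul_mul_smul_comm, add_mul, mul_sub, one_mul, mul_one, hdd]
    match_scalars <;> ring
  have h10 : E₁ * E₀ = 0 := by
    simp only [hE₀, hE₁, smul_mul_smul_comm, sub_mul, mul_add, one_mul, mul_one, hdd]
    match_scalars <;> ring
  have h0u : E₀ * u = u * E₁ := by
    simp only [hE₀, hE₁, smul_mul_assoc, mul_smul_comm, add_mul, mul_sub, one_mul, mul_one, hdu]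
    abel
  have h1u : E₁ * u = u * E₀ := by
    simp only [hE₀, hE₁, smul_mul_assoc, mul_smul_comm, sub_mul, mul_add, one_mul, mul_one, hdu]
    abel
  set φ := blockMap u E₀ E₁ with hφ
  have hφ1 : φ 1 = 1 := by
    simp only [hφ, blockMap, Matrix.one_apply_eq, ne_eq, Fin.reduceEq, not_false_eq_true,
      Matrix.one_apply_ne, zero_mul, zero_smul, add_zero, one_smul, hE₀, hE₁]
    rw [← smul_add, show (1 + d + (1 - d) : Module.End F V) = (2 : F) • 1 by
      rw [two_smul]; abel, inv_smul_smul₀ hD.two_ne]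
  have hφmul : ∀ M N, φ (M * N) = φ M * φ N :=
    blockMap_mul h3 huu h00 h11 h01 h10 h0u h1u
  let H : Subgroup (GL (Fin 2) F) :=
    { carrier := {g | φ (g : Matrix (Fin 2) (Fin 2) F) ∈ G}
      mul_mem' := fun {g k} hg hk => by
        simp only [Set.mem_setOf_eq, Units.val_mul, hφmul] at hg hk ⊢
        exact hG.mul_mem _ hg _ hk
      one_mem' := by simpa [hφ1] using hG.one_mem
      inv_mem' := fun {g} hg => by
        obtain ⟨k, hk, k1, k2⟩ := hG.inv_mem _ hg
        have : φ (g⁻¹ : GL (Fin 2) F) = k := left_inv_eq_right_inv (by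
          rw [← hφmul, ← Units.val_mul, inv_mul_cancel, Units.val_one, hφ1]) k1
        simp only [Set.mem_setOf_eq, this]; exact hk }
  have hH0 : ∀ g : GL (Fin 2) F, (∃ c : F, (g : Matrix (Fin 2) (Fin 2) F) = c • 1) → g ∈ H := by
    rintro g ⟨t, ht⟩
    have ht0 : t ≠ 0 := fun h0 => by
      have := g.isUnit; rw [ht, h0, zero_smul] at this; exact this.ne_zero rfl
    show φ _ ∈ G
    rw [ht]
    have : φ (t • 1) = t • φ 1 := by
      simp only [hφ, blockMap, Matrix.smul_apply, smul_eq_mul]
      match_scalars <;> ring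
    rw [this, hφ1]
    exact hG.smul_mem t ht0
  have hH1 : ∀ g : GL (Fin 2) F, (g : Matrix (Fin 2) (Fin 2) F) = !![1, 0; 0, i] → g ∈ H := by
    intro g hg
    show φ _ ∈ G
    rw [hg]
    have : φ !![1, 0; 0, i] = (((2 : F)⁻¹) * (1 + i)) • (1 + i • (-d)) := by
      simp only [hφ, blockMap, Matrix.of_apply, Matrix.cons_val', Matrix.cons_val_zero,
        Matrix.cons_val_one, Matrix.empty_val', Matrix.cons_val_fin_one, hE₀, hE₁, zero_mul]
      have hi := hD.sq_i
      match_scalars <;> field_simp <;> first | linear_combination (-1 : F) * hi | linear_combination (1 + i * (2 : F)⁻¹) * hi | (ring_nf; simp only [show i ^ 2 = -1 by linear_combination hi, show i ^ 3 = -i by linear_combination i * hi]; ring1)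
    rw [this]
    refine hG.smul_mem' (mul_ne_zero (inv_ne_zero hD.two_ne) fun h0 => ?_)
      (hG.t_mem _ (hD.neg_mem hdR) (by simp [hdd]))
    have := hD.sq_i
    rw [eq_neg_of_add_eq_zero_right h0] at this
    exact hD.two_ne (by linear_combination this)
  have hH2 : ∀ g : GL (Fin 2) F, (g : Matrix (Fin 2) (Fin 2) F) = !![1, 3; -1, 1] → g ∈ H := by
    intro g hg
    show φ _ ∈ G
    rw [hg]
    have : φ !![1, 3; -1, 1] = (2 : F) • D := by
      rw [hDeq, smul_inv_smul₀ hD.two_ne]
      simp only [hφ, blockMap, Matrix.of_apply, Matrix.cons_val', Matrix.cons_val_zero,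
        Matrix.cons_val_one, Matrix.empty_val', Matrix.cons_val_fin_one]
      have h3' : (3 : F) * (-3)⁻¹ = -1 := by field_simp
      rw [h3']
      simp only [hE₀, hE₁, mul_smul_comm, mul_add, mul_sub, mul_one]
      match_scalars <;> field_simp <;> first | ring1 | exact inv_mul_cancel₀ hD.two_ne | linear_combination (-1 : F) * inv_mul_cancel₀ hD.two_ne | linear_combination (2 : F) * inv_mul_cancel₀ hD.two_ne | linear_combination inv_mul_cancel₀ hD.two_ne
    rw [this]
    exact hG.smul_mem' hD.two_ne hDG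
  obtain ⟨g, hgH, hg00, hg11⟩ := hA H hH0 hH1 hH2
  set α := (g : Matrix (Fin 2) (Fin 2) F) 1 0 with hα
  have hα0 : α ≠ 0 := fun h0 => by
    have hdet : (g : Matrix (Fin 2) (Fin 2) F).det ≠ 0 :=
      ((Matrix.isUnit_iff_isUnit_det _).1 g.isUnit).ne_zero
    rw [Matrix.det_fin_two, hg00, ← hα, h0] at hdet
    simp at hdet
  -- an element of the centraliser of `d` acting as a multiple of `A` on its fixed space
  set w := x * φ (g : Matrix (Fin 2) (Fin 2) F) with hw
  have hwG : w ∈ G := hG.mul_mem _ (hG.sub hxR) _ hgH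
  obtain ⟨β, hweq⟩ : ∃ β : F, w = α • (A * E₀) + β • (A * E₁) := by
    refine ⟨(g : Matrix (Fin 2) (Fin 2) F) 0 1 * (-3 : F)⁻¹, ?_⟩
    simp only [hw, hφ, blockMap, hg00, hg11, zero_smul, zero_add, mul_add, mul_smul_comm,
      ← mul_assoc, hu, hx, one_mul, ← hα]
  have hdw : d * w = w * d := by
    have e0 : Commute d E₀ := by
      rw [hE₀]; exact ((Commute.one_right d).add_right (Commute.refl d)).smul_right _
    have e1 : Commute d E₁ := by
      rw [hE₁]; exact ((Commute.one_right d).sub_right (Commute.refl d)).smul_right _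
    rw [hweq]
    exact ((((show Commute d A from hdA).mul_right e0).smul_right α).add_right
      (((show Commute d A from hdA).mul_right e1).smul_right β)).eq
  have hwv : ∀ v ∈ Eig d, w v = α • A v := fun v hv => by
    rw [mem_eig] at hv
    simp [hweq, hE₀, hE₁, hv, smul_smul]
    rw [← add_smul]
    congr 1
    field_simp
    first | ring1 | exact inv_mul_cancel₀ hD.two_ne | linear_combination inv_mul_cancel₀ hD.two_ne
  have hN := hGood d hdR hdd hdns _ (resEl_mem hwG hdw)
  have hW := nontrivial_eig hD hdR hdd hdns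
  have hDW := hD.res hdR hdd
  set B := resEl d b hdb with hB
  set C := resEl d c hdc with hC
  set AW := resEl d A hdA with hAW
  have hBR : B ∈ Res d R := resEl_mem hbR hdb
  have hnm : ∀ p q : Module.End F (Eig d), -p * q = -(p * q) := fun p q => neg_mul p q
  obtain ⟨r, hr, hwr⟩ := hN B hBR
  have hBB : B * B = 1 := LinearMap.ext fun v => Subtype.ext (by
    simpa [hB] using congrArg (fun k : Module.End F V => k v) hb)
  have hCC : C * C = 1 := LinearMap.ext fun v => Subtype.ext (by
    simpa [hC] using congrArg (fun k : Module.End F V => k v) hc)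
  have hBC : B * C = -(C * B) := LinearMap.ext fun v => Subtype.ext (by
    simpa [hB, hC] using congrArg (fun k : Module.End F V => k v) hbc)
  have hAWeq : AW = i • C - i • B + C * B := LinearMap.ext fun v => Subtype.ext (by
    simp [hAW, hA', hB, hC])
  have hwW : resEl d w hdw = α • AW := LinearMap.ext fun v => Subtype.ext (by
    simp [hAW, hwv v v.2])
  rw [hwW, smul_mul_assoc, mul_smul_comm] at hwr
  have hAB : AW * B = r * AW := smul_right_injective _ hα0 hwr
  have hAAW : AW * AW = -(3 : F) • 1 := hAWeq ▸ mul_self_sum_eq_neg_three hDW hBB hCC hBC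
  have hABA : AW * B + B * AW = (-2 * i) • 1 := by
    have hBCB : B * C * B = -C := by rw [hBC, hnm, mul_assoc, hBB, mul_one]
    simp only [hAWeq, add_mul, sub_mul, mul_add, mul_sub, smul_mul_assoc, mul_smul_comm,
      ← mul_assoc, hBB, hBC, mul_assoc C B B, mul_one, hBCB]
    rw [show -(C * B) * B = -C by rw [hnm, mul_assoc, hBB, mul_one]]
    match_scalars <;> ring
  have hr' : r + B = ((2 : F) * i * (3 : F)⁻¹) • AW := by
    have h1 : (r + B) * AW = (-2 * i) • 1 := by rw [add_mul, ← hAB, hABA]
    have h2 := congrArg (· * AW) h1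
    simp only [mul_assoc, hAAW, mul_smul_comm, mul_one, smul_mul_assoc, one_mul] at h2
    have h3' : -(3 : F) ≠ 0 := neg_ne_zero.2 h3
    rw [← inv_smul_smul₀ h3' (r + B), h2, smul_smul]
    congr 1
    field_simp
  set κ := (2 : F) * i * (3 : F)⁻¹ with hκ
  have hκ0 : κ ≠ 0 := mul_ne_zero (mul_ne_zero hD.two_ne hD.i_ne) (inv_ne_zero h3)
  have hrB : r = κ • AW - B := by rw [← hr']; abel
  rcases hDW.comm_sign r hr B hBR with h | h
  · rw [hrB, sub_mul, mul_sub, sub_left_inj, smul_mul_assoc, mul_smul_comm] at h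
    have h' := smul_right_injective _ hκ0 h
    have h1 : C * (1 + i • B) = 0 := by
      have e1 : AW * B - B * AW = (2 : F) • (C * (1 + i • B)) := by
        have hBCB : B * C * B = -C := by rw [hBC, hnm, mul_assoc, hBB, mul_one]
        simp only [hAWeq, add_mul, sub_mul, mul_add, mul_sub, smul_mul_assoc, mul_smul_comm,
          ← mul_assoc, hBB, hBC, mul_one, hnm, mul_assoc C B B]
        match_scalars <;> ring
      rw [h', sub_self, eq_comm] at e1
      exact (smul_eq_zero.1 e1).resolve_left hD.two_ne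
    have h2 : (1 + i • B) * (1 - i • B) = (2 : F) • 1 := by
      rw [mul_sub, mul_one, add_mul, one_mul, hDW.i_smul_sq, hBB, two_smul]; abel
    have h5 := congrArg (fun t => C * t * (1 - i • B)) h1
    simp only [← mul_assoc, hCC, one_mul, mul_zero, zero_mul, h2] at h5
    exact hD.two_ne ((smul_eq_zero.1 h5).resolve_right one_ne_zero)
  · rw [eq_neg_iff_add_eq_zero, hrB, sub_mul, mul_sub, hBB, smul_mul_assoc, mul_smul_comm,
      sub_add_sub_comm, ← smul_add, hABA, smul_smul, ← two_smul F (1 : Module.End F (Eig d)),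
      ← sub_smul, smul_eq_zero] at h
    have h := h.resolve_right one_ne_zero
    rw [hκ] at h
    field_simp at h
    apply hD.two_ne
    linear_combination (exp := 1) (-1 : F) * h - (4 : F) * hD.sq_i

lemma eq_of_eig_eq (h2 : (2 : F) ≠ 0) {x f g : Module.End F V} (hx : x * x = 1)
    (h1 : ∀ v ∈ Eig x, f v = g v) (h1' : ∀ v ∈ Eig (-x), f v = g v) : f = g := by
  refine LinearMap.ext fun v => ?_
  have hxx : x (x v) = v := by simpa using congrArg (fun k : Module.End F V => k v) hx
  have e1 := h1 (v + x v) (mem_eig.2 (by simp [hxx, add_comm]))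
  have e2 := h1' (v - x v) (mem_eig.2 (by simp [hxx]))
  have h3 : f (v + x v + (v - x v)) = g (v + x v + (v - x v)) := by
    rw [map_add f (v + x v), map_add g (v + x v), e1, e2]
  rw [show v + x v + (v - x v) = (2 : F) • v by rw [two_smul]; abel, map_smul, map_smul] at h3
  exact smul_right_injective _ h2 h3

/-- No element of `G` is the identity on the fixed space of an involution `x` of `R` and a rotation
of order three attached to anticommuting elements on the other eigenspace. -/
def NoControlled (i : F) (R G : Set (Module.End F V)) : Prop :=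
  ∀ x b c : Module.End F V, x ∈ R → x * x = 1 → NS x → b ∈ R → c ∈ R → b * b = 1 → c * c = 1 →
    b * c = -(c * b) → x * b = b * x → x * c = c * x → ∀ e ∈ G, (∀ v ∈ Eig x, e v = v) →
    (∀ v ∈ Eig (-x), e v = (2 : F)⁻¹ • ((1 + i • c) * (1 - i • b)) v) → False

/-- `Good` without controlled rotations implies `Fix`. -/
theorem fix_of_noControlled (hD : Data i R) (hG : Grp i R G) (hGood : Good R G)
    (hnoC : NoControlled i R G) : Fix i R G := by
  intro y hyG hy _ hty x hxR hx hns hyx
  have hxy : x * y = y * x := hyx.symm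
  have get : ∀ z ∈ R, z * z = 1 → NS z → z * y = y * z →
      ∃ c ∈ R, c * c = 1 ∧ z * c = c * z ∧ ∀ v ∈ Eig z, y v = c v := by
    intro z hzR hz hzns hzy
    have := nontrivial_eig hD hzR hz hzns
    set Y := resEl z y hzy with hY
    have hYY : Y * Y = 1 := LinearMap.ext fun v => Subtype.ext (by
      simpa [hY] using congrArg (fun k : Module.End F V => k v) hy)
    have htc : z * (1 + i • y) = (1 + i • y) * z := by
      rw [mul_add, add_mul, mul_one, one_mul, mul_smul_comm, smul_mul_assoc, hzy]
    have hN := hGood z hzR hz hzns _ (resEl_mem hty htc)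
    rw [show resEl z _ htc = 1 + i • Y from LinearMap.ext fun v => Subtype.ext (by simp [hY])]
      at hN
    have : Finite (Module.End F (Eig z)) :=
      Finite.of_injective (fun f : Module.End F (Eig z) =>
        ((Eig z).subtype.comp (f.comp (eigProj hD.two_ne z hz)) : Module.End F V)) fun f g h =>
        LinearMap.ext fun w => Subtype.ext (by
          have := congrArg (fun k : Module.End F V => k w) h
          simpa [eigProj_self] using this)
    obtain ⟨c, hc, hzc, hYc⟩ := mem_of_quarter_nrm (hD.res hzR hz) hYY hN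
    refine ⟨c, hc, (hD.sq_sign c hc).resolve_right fun hcc => ?_, hzc, fun v hv => ?_⟩
    · obtain ⟨v, hv⟩ := exists_ne (0 : Eig z)
      have e1 := congrArg (fun k : Module.End F V => k v) hcc
      have e2 := congrArg (fun k : Module.End F (Eig z) => ((k v : Eig z) : V)) hYY
      simp only [Module.End.mul_apply, hYc, LinearMap.neg_apply, Module.End.one_apply] at e1 e2
      rw [e2, eq_neg_iff_add_eq_zero, ← two_smul F] at e1
      exact hv (Subtype.ext ((smul_eq_zero.1 e1).resolve_left hD.two_ne))
    · exact (hYc ⟨v, hv⟩)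
  have hmns : NS (-x) := by simpa using hns.smul (neg_ne_zero.2 one_ne_zero)
  obtain ⟨c, hcR, hc, hxc, hcv⟩ := get x hxR hx hns hxy
  obtain ⟨d, hdR, hd, hxd', hdv⟩ :=
    get (-x) (hD.neg_mem hxR) (by simp [hx]) hmns (by rw [neg_mul, hxy, mul_neg])
  have hxd : x * d = d * x := by simpa using hxd'
  -- it suffices that `c` and `d` agree up to sign on the second eigenspace
  suffices h : (∀ v ∈ Eig (-x), d v = c v) ∨ (∀ v ∈ Eig (-x), d v = -c v) by
    rcases h with h | h
    · rw [eq_of_eig_eq hD.two_ne hx hcv fun v hv => (hdv v hv).trans (h v hv)]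
      exact hcR
    · rw [eq_of_eig_eq (f := y) hD.two_ne hx (g := c * x)
        (fun v hv => by rw [hcv v hv, Module.End.mul_apply, mem_eig.1 hv])
        fun v hv => by
          have : x v = -v := by simpa [neg_eq_iff_eq_neg] using mem_eig.1 hv
          rw [hdv v hv, h v hv, Module.End.mul_apply, this, map_neg]]
      exact hD.mul_mem _ hcR _ hxR
  have pd : ∀ {g : Module.End F V}, x * g = g * x → ∀ {v}, v ∈ Eig (-x) → g v ∈ Eig (-x) :=
    fun hg _ hv => comm_mem_eig (by rw [neg_mul, hg, mul_neg]) hv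
  have pc : ∀ {g : Module.End F V}, x * g = g * x → ∀ {v}, v ∈ Eig x → g v ∈ Eig x :=
    fun hg _ hv => comm_mem_eig hg hv
  -- quarter turns
  have tmem : ∀ r ∈ R, r * r = 1 → 1 - i • r ∈ G := fun r hr h => by
    simpa [sub_eq_add_neg] using hG.t_mem (-r) (hD.neg_mem hr) (by simp [h])
  have tinv : ∀ r : Module.End F V, r * r = 1 → (1 + i • r) * (1 - i • r) = (2 : F) • 1 := by
    intro r h
    rw [mul_sub, mul_one, add_mul, one_mul, hD.i_smul_sq, h, two_smul]; abel
  have tinv' : ∀ r : Module.End F V, r * r = 1 → (1 - i • r) * (1 + i • r) = (2 : F) • 1 := by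
    intro r h
    rw [mul_add, mul_one, sub_mul, one_mul, hD.i_smul_sq, h, two_smul]; abel
  set e := (2 : F)⁻¹ • ((1 + i • y) * (1 - i • c)) with he
  have heG : e ∈ G :=
    hG.smul_mem' (inv_ne_zero hD.two_ne) (hG.mul_mem _ hty _ (tmem c hcR hc))
  have tcomm : ∀ r : Module.End F V, x * r = r * x → x * (1 - i • r) = (1 - i • r) * x :=
    fun r h => by rw [mul_sub, sub_mul, mul_one, one_mul, mul_smul_comm, smul_mul_assoc, h]
  have tcomm' : ∀ r : Module.End F V, x * r = r * x → x * (1 + i • r) = (1 + i • r) * x :=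
    fun r h => by rw [mul_add, add_mul, mul_one, one_mul, mul_smul_comm, smul_mul_assoc, h]
  have ty1 : ∀ v ∈ Eig x, (1 + i • y) v = (1 + i • c) v := fun v hv => by simp [hcv v hv]
  have ty2 : ∀ v ∈ Eig (-x), (1 + i • y) v = (1 + i • d) v := fun v hv => by simp [hdv v hv]
  have he1 : ∀ v ∈ Eig x, e v = v := fun v hv => by
    rw [he, LinearMap.smul_apply, Module.End.mul_apply, ty1 _ (pc (tcomm c hxc) hv),
      ← Module.End.mul_apply, tinv c hc, LinearMap.smul_apply, Module.End.one_apply,
      inv_smul_smul₀ hD.two_ne]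
  have he2 : ∀ v ∈ Eig (-x), e v = (2 : F)⁻¹ • ((1 + i • d) * (1 - i • c)) v := fun v hv => by
    rw [he, LinearMap.smul_apply, Module.End.mul_apply, ty2 _ (pd (tcomm c hxc) hv),
      ← Module.End.mul_apply]
  rcases hD.comm_sign c hcR d hdR with hcd | hcd
  swap
  · exact (hnoC x c d hxR hx hns hcR hdR hc hd hcd hxc hxd e heG he1 he2).elim
  have hmx2 : (-x) * (-x) = 1 := by simp [hx]
  have := nontrivial_eig hD (hD.neg_mem hxR) hmx2 hmns
  have hDW := hD.res (hD.neg_mem hxR) hmx2
  have hcd' : (-x) * (c * d) = c * d * -x := by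
    rw [neg_mul, ← mul_assoc, hxc, mul_assoc, hxd, ← mul_assoc, mul_neg]
  by_cases hns' : NS (resEl (-x) (c * d) hcd')
  swap
  · simp only [NS, not_forall, not_not] at hns'
    obtain ⟨l, hl⟩ := hns'
    have hv : ∀ v ∈ Eig (-x), d v = l • c v := fun v hv => by
      have := congrArg (fun k : Module.End F (Eig (-x)) => c ((k ⟨v, hv⟩ : Eig (-x)) : V)) hl
      simpa [← Module.End.mul_apply, ← mul_assoc, hc, map_smul] using this
    obtain ⟨v, hv0⟩ := exists_ne (0 : Eig (-x))
    have hll : l * l = 1 := by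
      have e1 : d (d v) = (l * l) • (v : V) := by
        rw [hv _ (pd hxd v.2), hv _ v.2, map_smul, smul_smul, ← Module.End.mul_apply, hc,
          Module.End.one_apply]
      rw [← Module.End.mul_apply, hd, Module.End.one_apply] at e1
      refine smul_left_injective F (M := V) (fun h0 => hv0 (Subtype.ext h0)) ?_
      simpa using e1.symm
    rcases mul_self_eq_one_iff.1 hll with rfl | rfl
    · exact Or.inl fun v hv' => by simpa using hv v hv'
    · exact Or.inr fun v hv' => by simpa using hv v hv'
  exfalso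
  obtain ⟨q', ⟨q, hqR, hxq', hq'⟩, hq'q', hanti⟩ :=
    hDW.exists_anticomm (resEl_mem (hD.mul_mem _ hcR _ hdR) hcd') hns'
  have hxq : x * q = q * x := by simpa using hxq'
  have hqq : q * q = 1 := (hD.sq_sign q hqR).resolve_right fun hqq => by
    obtain ⟨v, hv⟩ := exists_ne (0 : Eig (-x))
    have e1 := congrArg (fun k : Module.End F V => k v) hqq
    have e2 := congrArg (fun k : Module.End F (Eig (-x)) => ((k v : Eig (-x)) : V)) hq'q'
    simp only [Module.End.mul_apply, hq', LinearMap.neg_apply, Module.End.one_apply] at e1 e2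
    rw [e2, eq_neg_iff_add_eq_zero, ← two_smul F] at e1
    exact hv (Subtype.ext ((smul_eq_zero.1 e1).resolve_left hD.two_ne))
  have hnc : ¬ (c * d) * q = q * (c * d) := fun h => by
    have h' : resEl (-x) (c * d) hcd' * q' = q' * resEl (-x) (c * d) hcd' :=
      LinearMap.ext fun v => Subtype.ext (by
        simpa [hq'] using congrArg (fun k : Module.End F V => k v) h)
    rw [h', eq_neg_iff_add_eq_zero, ← two_smul F] at hanti
    exact ((hDW.isUnit ⟨q, hqR, hxq', hq'⟩).mul
      (hDW.isUnit (resEl_mem (hD.mul_mem _ hcR _ hdR) hcd'))).ne_zero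
      ((smul_eq_zero.1 hanti).resolve_left hD.two_ne)
  -- conjugation by the quarter turn of `q`
  have conjq : ∀ r : Module.End F V, r * q = -(q * r) → r * r = 1 →
      (1 + i • q) * (1 - i • r) * ((2 : F)⁻¹ • (1 - i • q)) = 1 - i • (i • (q * r)) ∧
      (1 + i • q) * (1 + i • r) * ((2 : F)⁻¹ • (1 - i • q)) = 1 + i • (i • (q * r)) ∧
      (i • (q * r)) * (i • (q * r)) = 1 ∧ r * (i • (q * r)) = -((i • (q * r)) * r) := by
    intro r h hr
    have hrqr : r * q * r = -q := by rw [h, neg_mul, mul_assoc, hr, mul_one]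
    have hqrq : q * r * q = -r := by rw [mul_assoc, h, mul_neg, ← mul_assoc, hqq, one_mul]
    refine ⟨?_, ?_, ?_, ?_⟩
    · simp only [mul_add, mul_sub, add_mul, sub_mul, smul_mul_assoc, mul_smul_comm, one_mul,
        mul_one, hqq, hqrq, h, hD.two_ne]
      match_scalars <;> field_simp <;> simp [hD.sq_i, pow_two, mul_assoc] <;> first | ring1 | exact inv_mul_cancel₀ hD.two_ne | linear_combination (-1 : F) * inv_mul_cancel₀ hD.two_ne | linear_combination (2 : F) * inv_mul_cancel₀ hD.two_ne | linear_combination inv_mul_cancel₀ hD.two_ne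
    · simp only [mul_add, mul_sub, add_mul, sub_mul, smul_mul_assoc, mul_smul_comm, one_mul,
        mul_one, hqq, hqrq, h, hD.two_ne]
      match_scalars <;> field_simp <;> simp [hD.sq_i, pow_two, mul_assoc] <;> first | ring1 | exact inv_mul_cancel₀ hD.two_ne | linear_combination (-1 : F) * inv_mul_cancel₀ hD.two_ne | linear_combination (2 : F) * inv_mul_cancel₀ hD.two_ne | linear_combination inv_mul_cancel₀ hD.two_ne
    · rw [hD.i_smul_sq, mul_assoc, ← mul_assoc r q r, hrqr, mul_neg, hqq, neg_neg]
    · rw [mul_smul_comm, smul_mul_assoc, ← mul_assoc, h, neg_mul, smul_neg, mul_assoc, hr]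
  obtain ⟨e', he'G, ee1, ee2⟩ := hG.inv_mem e heG
  set T := 1 + i • q
  set T' := (2 : F)⁻¹ • (1 - i • q)
  have hT : T ∈ G := hG.t_mem q hqR hqq
  have hT' : T' ∈ G := hG.smul_mem' (inv_ne_zero hD.two_ne) (tmem q hqR hqq)
  have TT' : T * T' = 1 := by rw [mul_smul_comm, tinv q hqq, inv_smul_smul₀ hD.two_ne]
  have T'T : T' * T = 1 := by rw [smul_mul_assoc, tinv' q hqq, inv_smul_smul₀ hD.two_ne]
  have hxT : x * T = T * x := tcomm' q hxq
  have hxT' : x * T' = T' * x := by rw [mul_smul_comm, smul_mul_assoc, tcomm q hxq]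
  have hE1 : ∀ v ∈ Eig x, (T * e * T') v = v := fun v hv => by
    rw [Module.End.mul_apply, Module.End.mul_apply, he1 _ (pc hxT' hv), ← Module.End.mul_apply,
      TT', Module.End.one_apply]
  have hE2 : ∀ v ∈ Eig (-x), (T * e * T') v =
      (2 : F)⁻¹ • ((T * (1 + i • d) * T') * (T * (1 - i • c) * T')) v := fun v hv => by
    rw [conj_mul_conj T'T]
    simp only [Module.End.mul_apply, he2 _ (pd hxT' hv), map_smul]
  have hTfix : ∀ r : Module.End F V, r * q = q * r →
      T * (1 + i • r) * T' = 1 + i • r ∧ T * (1 - i • r) * T' = 1 - i • r := by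
    intro r h
    have h' : T * r = r * T := by
      simp only [T, add_mul, mul_add, one_mul, mul_one, smul_mul_assoc, mul_smul_comm, h]
    have hp : T * (1 + i • r) = (1 + i • r) * T := by
      rw [mul_add T, mul_one, add_mul _ _ T, one_mul, mul_smul_comm i T r, h', smul_mul_assoc]
    have hm : T * (1 - i • r) = (1 - i • r) * T := by
      rw [mul_sub T, mul_one, sub_mul _ _ T, one_mul, mul_smul_comm i T r, h', smul_mul_assoc]
    exact ⟨by rw [hp, mul_assoc _ T T', TT', mul_one], by rw [hm, mul_assoc _ T T', TT', mul_one]⟩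
  have hsm : ∀ {r}, r ∈ R → i • (q * r) ∈ R := fun hr => hD.i_smul_mem (hD.mul_mem _ hqR _ hr)
  have hsx : ∀ {r}, x * r = r * x → x * (i • (q * r)) = (i • (q * r)) * x := fun {r} h => by
    rw [mul_smul_comm, smul_mul_assoc, ← mul_assoc, hxq, mul_assoc, h, mul_assoc]
  rcases hD.comm_sign c hcR q hqR with hcq | hcq <;> rcases hD.comm_sign d hdR q hqR with hdq | hdq
  · exact hnc (by rw [mul_assoc, hdq, ← mul_assoc, hcq, mul_assoc])
  · -- `q` moves `d`
    obtain ⟨-, k1, k2, k3⟩ := conjq d hdq hd
    rw [(hTfix c hcq).2, k1] at hE2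
    set d' := i • (q * d) with hd'
    have hd'R : d' ∈ R := hsm hdR
    have hd'x : x * d' = d' * x := hsx hxd
    clear_value d'
    -- `e * (conjugate)⁻¹`
    obtain ⟨E', hE'G, E1, E2⟩ := hG.inv_mem _ (hG.mul_mem _ (hG.mul_mem _ hT _ heG) _ hT')
    have hE'eq1 : ∀ v ∈ Eig x, E' v = v := fun v hv => by
      conv_lhs => rw [← hE1 v hv, ← Module.End.mul_apply, E2, Module.End.one_apply]
    have hE'eq2 : ∀ v ∈ Eig (-x),
        E' v = (2 : F)⁻¹ • ((1 + i • c) * (1 - i • d')) v := fun v hv => by
      have hcomm : x * ((1 + i • c) * (1 - i • d')) = (1 + i • c) * (1 - i • d') * x := by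
        rw [← mul_assoc, tcomm' c hxc, mul_assoc, tcomm d' hd'x, mul_assoc]
      have hmem : (2 : F)⁻¹ • ((1 + i • c) * (1 - i • d')) v ∈ Eig (-x) :=
        Submodule.smul_mem _ _ (pd hcomm hv)
      have := hE2 _ hmem
      have hprod : (1 + i • d') * (1 - i • c) * ((1 + i • c) * (1 - i • d')) =
          ((2 : F) * 2) • 1 := by
        rw [mul_assoc, ← mul_assoc (1 - i • c), tinv' c hc, smul_mul_assoc, one_mul,
          mul_smul_comm, tinv d' k2, smul_smul]
      rw [map_smul, map_smul, ← Module.End.mul_apply ((1 + i • d') * (1 - i • c)) ((1 + i • c) * _), hprod, LinearMap.smul_apply,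
        Module.End.one_apply, mul_smul, inv_smul_smul₀ hD.two_ne, inv_smul_smul₀ hD.two_ne] at this
      conv_lhs => rw [← this, map_smul, ← Module.End.mul_apply E', E2, Module.End.one_apply]
    refine hnoC x d' d hxR hx hns hd'R hdR k2 hd ?_ hd'x hxd _
      (hG.mul_mem _ heG _ hE'G) (fun v hv => ?_) fun v hv => ?_
    · rw [k3, neg_neg]
    · rw [Module.End.mul_apply, hE'eq1 v hv, he1 v hv]
    · rw [Module.End.mul_apply, hE'eq2 v hv, map_smul]
      have hcomm : x * ((1 + i • c) * (1 - i • d')) = (1 + i • c) * (1 - i • d') * x := by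
        rw [← mul_assoc, tcomm' c hxc, mul_assoc, tcomm d' hd'x, mul_assoc]
      rw [he2 _ (pd hcomm hv), ← Module.End.mul_apply, mul_assoc, ← mul_assoc (1 - i • c),
        tinv' c hc, smul_mul_assoc, one_mul, mul_smul_comm, LinearMap.smul_apply,
        inv_smul_smul₀ hD.two_ne]
  · -- `q` moves `c`
    obtain ⟨k0, -, k2, k3⟩ := conjq c hcq hc
    rw [(hTfix d hdq).1, k0] at hE2
    set c' := i • (q * c) with hc'
    have hc'R : c' ∈ R := hsm hcR
    have hc'x : x * c' = c' * x := hsx hxc
    clear_value c'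
    obtain ⟨E', hE'G, E1, E2⟩ := hG.inv_mem _ (hG.mul_mem _ (hG.mul_mem _ hT _ heG) _ hT')
    have hE'eq1 : ∀ v ∈ Eig x, E' v = v := fun v hv => by
      conv_lhs => rw [← hE1 v hv, ← Module.End.mul_apply, E2, Module.End.one_apply]
    have hE'eq2 : ∀ v ∈ Eig (-x),
        E' v = (2 : F)⁻¹ • ((1 + i • c') * (1 - i • d)) v := fun v hv => by
      have hcomm : x * ((1 + i • c') * (1 - i • d)) = (1 + i • c') * (1 - i • d) * x := by
        rw [← mul_assoc, tcomm' c' hc'x, mul_assoc, tcomm d hxd, mul_assoc]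
      have hmem : (2 : F)⁻¹ • ((1 + i • c') * (1 - i • d)) v ∈ Eig (-x) :=
        Submodule.smul_mem _ _ (pd hcomm hv)
      have := hE2 _ hmem
      have hprod : (1 + i • d) * (1 - i • c') * ((1 + i • c') * (1 - i • d)) =
          ((2 : F) * 2) • 1 := by
        rw [mul_assoc, ← mul_assoc (1 - i • c'), tinv' c' k2, smul_mul_assoc, one_mul,
          mul_smul_comm, tinv d hd, smul_smul]
      rw [map_smul, map_smul, ← Module.End.mul_apply ((1 + i • d) * (1 - i • c')) ((1 + i • c') * _), hprod, LinearMap.smul_apply,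
        Module.End.one_apply, mul_smul, inv_smul_smul₀ hD.two_ne, inv_smul_smul₀ hD.two_ne] at this
      conv_lhs => rw [← this, map_smul, ← Module.End.mul_apply E', E2, Module.End.one_apply]
    refine hnoC x c c' hxR hx hns hcR hc'R hc k2 k3 hxc hc'x _
      (hG.mul_mem _ hE'G _ heG) (fun v hv => ?_) fun v hv => ?_
    · rw [Module.End.mul_apply, he1 v hv, hE'eq1 v hv]
    · rw [Module.End.mul_apply, he2 v hv, map_smul]
      have hcomm : x * ((1 + i • d) * (1 - i • c)) = (1 + i • d) * (1 - i • c) * x := by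
        rw [← mul_assoc, tcomm' d hxd, mul_assoc, tcomm c hxc, mul_assoc]
      rw [hE'eq2 _ (pd hcomm hv), ← Module.End.mul_apply, mul_assoc, ← mul_assoc (1 - i • d),
        tinv' d hd, smul_mul_assoc, one_mul, mul_smul_comm, LinearMap.smul_apply,
        inv_smul_smul₀ hD.two_ne]
  · exact hnc (by rw [mul_assoc, hdq, mul_neg, ← mul_assoc, hcq, neg_mul, neg_neg, mul_assoc])

/-- `Good` implies `Fix`. -/
theorem fix_of_good (hD : Data i R) (hG : Grp i R G) (hGood : Good R G) (hA : Antidiag i)
    (h3 : (3 : F) ≠ 0) : Fix i R G :=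
  fix_of_noControlled hD hG hGood fun _ _ _ h1 h2 h4 h5 h6 h7 h8 h9 h10 h11 _ h12 h13 h14 =>
    no_controlled hD hG hGood hA h3 h1 h2 h4 h5 h6 h7 h8 h9 h10 h11 h12 h13 h14

end Cfsg.Agent.MaxSub.CSix
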