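import Cfsg.Agent.MaxSub.CSix.Core
import Cfsg.Agent.MaxSub.Dickson.Overgroups

/-!
The two dimensional input for the symplectic-type case: subgroups of `GL(2, p)` containing the
scalars, a quarter turn and a second suitable element.
-/

set_option autoImplicit false
set_option linter.unusedSectionVars false

open scoped MatrixGroups OnePoint

namespace Cfsg.Agent.MaxSub.CSix

open Cfsg.Agent.MaxSub.Dickson Matrix

section Perm

lemma perm_four_inverse : ∀ σ : Equiv.Perm (Fin 4), σ ^ 4 = 1 → σ ^ 2 ≠ 1 →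
    ∃ τ, τ * σ = σ ^ 3 * τ := by decide +kernel

lemma alt_four_pow : ∀ σ : alternatingGroup (Fin 4), σ ^ 4 = 1 → σ ^ 2 = 1 := by decide +kernel

lemma alt_five_pow : ∀ σ : alternatingGroup (Fin 5), σ ^ 4 = 1 → σ ^ 2 = 1 := by decide +kernel

/-- The double transpositions. -/
def dtr : List (Equiv.Perm (Fin 4)) :=
  [Equiv.swap 0 1 * Equiv.swap 2 3, Equiv.swap 0 2 * Equiv.swap 1 3,
    Equiv.swap 0 3 * Equiv.swap 1 2]

lemma mem_dtr : ∀ a : Equiv.Perm (Fin 4), a * a = 1 → a ≠ 1 → Equiv.Perm.sign a = 1 → a ∈ dtr := by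
  decide +kernel

lemma dtr_three : ∀ a ∈ dtr, ∀ b ∈ dtr, a ≠ b → ∀ c ∈ dtr, c = a ∨ c = b ∨ c = a * b := by
  decide +kernel

/-- Conjugates of squares of elements of order `4` in `S₄`. -/
lemma perm_four_conj {σ τ : Equiv.Perm (Fin 4)} (hσ : σ ^ 4 = 1) (hσ' : σ ^ 2 ≠ 1)
    (hτ : τ ^ 4 = 1) (hτ' : τ ^ 2 ≠ 1) (hne : σ ^ 2 ≠ τ ^ 2) (γ : Equiv.Perm (Fin 4))
    {c : Equiv.Perm (Fin 4)} (hc : c = σ ^ 2 ∨ c = τ ^ 2) :
    γ * c * γ⁻¹ = σ ^ 2 ∨ γ * c * γ⁻¹ = τ ^ 2 ∨ γ * c * γ⁻¹ = σ ^ 2 * τ ^ 2 := by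
  have key : ∀ ρ : Equiv.Perm (Fin 4), ρ ^ 4 = 1 → ρ ^ 2 ≠ 1 →
      ρ ^ 2 * ρ ^ 2 = 1 ∧ ρ ^ 2 ≠ 1 ∧ Equiv.Perm.sign (ρ ^ 2) = 1 := fun ρ h h' =>
    ⟨by rw [← pow_add, h], h', by rw [map_pow, Int.units_sq]⟩
  obtain ⟨h1, h2, h3⟩ : c * c = 1 ∧ c ≠ 1 ∧ Equiv.Perm.sign c = 1 := by
    rcases hc with rfl | rfl
    · exact key σ hσ hσ'
    · exact key τ hτ hτ'
  refine dtr_three _ (mem_dtr _ (key σ hσ hσ').1 (key σ hσ hσ').2.1 (key σ hσ hσ').2.2) _
    (mem_dtr _ (key τ hτ hτ').1 (key τ hτ hτ').2.1 (key τ hτ hτ').2.2) hne _ (mem_dtr _ ?_ ?_ ?_)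
  · calc γ * c * γ⁻¹ * (γ * c * γ⁻¹) = γ * (c * c) * γ⁻¹ := by group
      _ = 1 := by rw [h1]; group
  · exact fun h => h2 (conj_eq_one_iff.1 h)
  · rw [map_mul, map_mul, h3, mul_one, ← map_mul, mul_inv_cancel, map_one]

end Perm

section Field

variable {F : Type*} [Field F]

lemma swap_not_tor_sq [Fintype F] [DecidableEq F] {K : Type*} [Field K] [DecidableEq K]
    [Algebra F K] [IsAlgClosed K] {a b : OnePoint K} (hab : a ≠ b) {g : PGL(2, F)}
    (hg : g ∈ pairStab a b) (h2 : g * g ≠ 1) : g ∈ tor a b := by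
  rcases hg with h | ⟨h1, h1'⟩
  · exact h
  · exfalso
    obtain ⟨c, hc⟩ := exists_fixed (emb K g)
    refine h2 (emb_injective (K := K) ?_)
    rw [map_one]
    refine eq_one_of_three hab ?_ ?_ (a := a) (b := b) (c := c) ?_ ?_ ?_
    · rintro rfl; exact hab (hc.symm.trans h1)
    · rintro rfl; exact hab (h1'.symm.trans hc)
    all_goals simp only [map_mul, mul_smul, h1, h1', hc]

lemma mem_of_mk_mem {H : Subgroup (GL (Fin 2) F)}
    (hscal : ∀ u : Fˣ, GeneralLinearGroup.scalar (Fin 2) u ∈ H) {g : GL (Fin 2) F}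
    (hg : ProjGenLinGroup.mk g ∈ H.map ProjGenLinGroup.mk) : g ∈ H := by
  obtain ⟨g', hg', he⟩ := hg
  obtain ⟨u, rfl⟩ := ProjGenLinGroup.mk_eq_mk_iff.1 he
  exact H.mul_mem hg' (hscal u)

lemma coe_mul_scalar (g : GL (Fin 2) F) (u : Fˣ) :
    ((g * GeneralLinearGroup.scalar (Fin 2) u : GL (Fin 2) F) : Matrix (Fin 2) (Fin 2) F)
      = (u : F) • (g : Matrix (Fin 2) (Fin 2) F) := by
  rw [Units.val_mul, GeneralLinearGroup.coe_scalar, Matrix.scalar_apply, ← Matrix.smul_one_eq_diagonal,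
    Matrix.mul_smul, Matrix.mul_one]

/-- The case list: a subfield group, or `S₄`. -/
theorem classify_quarter [Fintype F] [DecidableEq F] {i : F}
    (hi : i * i = -1) (h2 : (2 : F) ≠ 0) (H : Subgroup (GL (Fin 2) F))
    (hscal : ∀ u : Fˣ, GeneralLinearGroup.scalar (Fin 2) u ∈ H) {T S : GL (Fin 2) F} (hTH : T ∈ H)
    (hSH : S ∈ H) (hT : (T : Matrix (Fin 2) (Fin 2) F) = !![1, 0; 0, i])
    {a b c d : F} (hS : (S : Matrix (Fin 2) (Fin 2) F) = !![a, b; c, d])
    (ha : a ≠ 0) (hb : b ≠ 0) (hc : c ≠ 0) (hS2 : a * b + b * d ≠ 0) :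
    (ProjGenLinGroup.mk T ^ 4 = 1 ∧ ProjGenLinGroup.mk T ^ 2 ≠ 1) ∧
      ((∃ (F₀ : Subfield F) (h : PGL(2, F)), 4 ≤ Nat.card F₀ ∧
          ((H.map ProjGenLinGroup.mk).map (MulAut.conj h⁻¹).toMonoidHom = (subPGL F₀).range ∨
            (H.map ProjGenLinGroup.mk).map (MulAut.conj h⁻¹).toMonoidHom = (subPSL F₀).range)) ∨
        Nonempty (H.map (ProjGenLinGroup.mk (n := Fin 2) (R := F)) ≃* Equiv.Perm (Fin 4))) := by
  classical
  obtain ⟨p, hpc⟩ := CharP.exists F
  obtain ⟨-, hp, -⟩ := FiniteField.card F p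
  have : Fact p.Prime := ⟨hp⟩
  letI : DecidableEq (AlgebraicClosure F) := Classical.decEq _
  have hi1 : i ≠ 1 := by
    rintro rfl
    exact h2 (by linear_combination hi)
  set t := ProjGenLinGroup.mk T with htdef
  set s := ProjGenLinGroup.mk S with hsdef
  set H' := H.map (ProjGenLinGroup.mk (n := Fin 2) (R := F)) with hH'
  have ht : t ∈ H' := ⟨T, hTH, rfl⟩
  have hs : s ∈ H' := ⟨S, hSH, rfl⟩
  have hT2 : t * t ≠ 1 := by
    intro h
    rw [htdef, ← map_mul, ← map_one ProjGenLinGroup.mk] at h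
    obtain ⟨u, hu⟩ := ProjGenLinGroup.mk_eq_mk_iff.1 h
    have h' := congrArg (fun g : GL (Fin 2) F => (g : Matrix (Fin 2) (Fin 2) F)) hu
    rw [coe_mul_scalar] at h'
    simp only [Units.val_mul, hT, Units.val_one] at h'
    have e0 := congrFun (congrFun h' 0) 0
    have e1 := congrFun (congrFun h' 1) 1
    simp [hi] at e0 e1
    rw [e0, Units.val_one] at e1
    exact h2 (by linear_combination -e1)
  have hT4 : t ^ 4 = 1 := by
    have e : T ^ 4 = 1 := Units.ext (by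
      rw [Units.val_pow_eq_pow_val, hT, show (4 : ℕ) = 2 + 2 from rfl, pow_add, pow_two]
      ext m n
      fin_cases m <;> fin_cases n <;> simp [hi])
    rw [htdef, ← map_pow, e, map_one]
  have hS2' : s * s ≠ 1 := by
    intro h
    rw [hsdef, ← map_mul, ← map_one ProjGenLinGroup.mk] at h
    obtain ⟨u, hu⟩ := ProjGenLinGroup.mk_eq_mk_iff.1 h
    have h' := congrArg (fun g : GL (Fin 2) F => (g : Matrix (Fin 2) (Fin 2) F)) hu
    rw [coe_mul_scalar] at h'
    simp only [Units.val_mul, hS, Units.val_one] at h'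
    have e0 := congrFun (congrFun h' 0) 1
    simp [u.ne_zero] at e0
    exact hS2 e0
  have hne : t * s ≠ s * t := by
    intro h
    rw [htdef, hsdef, ← map_mul, ← map_mul] at h
    obtain ⟨u, hu⟩ := ProjGenLinGroup.mk_eq_mk_iff.1 h
    have h' := congrArg (fun g : GL (Fin 2) F => (g : Matrix (Fin 2) (Fin 2) F)) hu
    rw [coe_mul_scalar] at h'
    simp only [Units.val_mul, hT, hS] at h'
    have e0 := congrFun (congrFun h' 0) 0
    have e1 := congrFun (congrFun h' 0) 1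
    simp [ha] at e0 e1
    rw [e0, Units.val_one, one_mul] at e1
    exact hi1 (mul_right_cancel₀ hb (by linear_combination -e1))
  refine ⟨⟨hT4, by rwa [pow_two]⟩, ?_⟩
  have hnocomm : ∀ {x y : OnePoint (AlgebraicClosure F)}, x ≠ y → H' ≤ pairStab x y → False := by
    intro x y hxy hle
    have h1 := swap_not_tor_sq hxy (hle ht) hT2
    have h1' := swap_not_tor_sq hxy (hle hs) hS2'
    have hcy := isCyclic_tor (F := F) (K := AlgebraicClosure F) hxy
    letI := hcy.commGroup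
    exact hne (congrArg Subtype.val (mul_comm (⟨t, h1⟩ : tor (F := F) x y) ⟨s, h1'⟩))
  rcases classifyF (K := AlgebraicClosure F) (p := p) H' with
    ⟨a', b', m', -, -, hm', hle, -⟩ | ⟨a', b', m', n, hm', hle, -, -, -, -, -⟩ | ⟨x, hfix, -⟩ |
    ⟨-, -, ⟨e⟩⟩ | ⟨-, -, he⟩ | ⟨-, -, ⟨e⟩⟩ | ⟨F₀, h, h4, he⟩ | ⟨F₀, h, h4, hodd, he⟩
  · exact (hnocomm hm'.1 (hle.trans tor_le_pairStab)).elim
  · exact (hnocomm hm'.1 hle).elim
  · exfalso
    have f1 := hfix _ ht
    have f2 := hfix _ hs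
    rw [htdef, mk_smul] at f1
    rw [hsdef, mk_smul] at f2
    cases x with
    | infty =>
      rw [OnePoint.smul_infty_eq_self_iff, hS] at f2
      exact hc (by simpa using f2)
    | coe k =>
      rw [OnePoint.smul_some_eq_ite, hT] at f1
      rw [OnePoint.smul_some_eq_ite, hS] at f2
      have hi0 : i ≠ 0 := by rintro rfl; simp at hi
      simp [hi0] at f1
      have hk : k = 0 := by
        have h3 : k * (i - 1) = 0 := by
          rw [div_eq_iff hi0] at f1; linear_combination -f1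
        exact (mul_eq_zero.1 h3).resolve_right (sub_ne_zero.2 hi1)
      subst hk
      by_cases hd : d = 0
      · simp [hd] at f2
      · simp [hd, hb] at f2
  · exfalso
    have h := alt_four_pow (e ⟨t, ht⟩) (by rw [← map_pow]; simp [Subtype.ext_iff, hT4])
    rw [← map_pow, map_eq_one_iff _ e.injective] at h
    exact hT2 (by simpa [pow_two] using congrArg Subtype.val h)
  · exact Or.inr he
  · exfalso
    have h := alt_five_pow (e ⟨t, ht⟩) (by rw [← map_pow]; simp [Subtype.ext_iff, hT4])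
    rw [← map_pow, map_eq_one_iff _ e.injective] at h
    exact hT2 (by simpa [pow_two] using congrArg Subtype.val h)
  · exact Or.inl ⟨F₀, h, h4, Or.inl he⟩
  · exact Or.inl ⟨F₀, h, h4, Or.inr he⟩

/-- The subfield case with the whole field contains everything of determinant one. -/
theorem sl_of_top [Fintype F] [DecidableEq F] {H : Subgroup (GL (Fin 2) F)}
    (hscal : ∀ u : Fˣ, GeneralLinearGroup.scalar (Fin 2) u ∈ H) {F₀ : Subfield F} (hF₀ : F₀ = ⊤)
    {h : PGL(2, F)}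
    (he : (H.map ProjGenLinGroup.mk).map (MulAut.conj h⁻¹).toMonoidHom = (subPGL F₀).range ∨
      (H.map ProjGenLinGroup.mk).map (MulAut.conj h⁻¹).toMonoidHom = (subPSL F₀).range)
    (g : GL (Fin 2) F) (hg : (g : Matrix (Fin 2) (Fin 2) F).det = 1) : g ∈ H := by
  classical
  refine mem_of_mk_mem hscal ?_
  have hm : ProjGenLinGroup.mk g ∈ lsub F := (mk_mem_lsub_iff g).2 (by rw [hg]; exact IsSquare.one)
  have hle : lsub F ≤ (H.map ProjGenLinGroup.mk).map (MulAut.conj h⁻¹).toMonoidHom := by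
    rcases he with he | he <;> rw [he]
    · rw [Subgroup.eq_top_of_card_eq (subPGL F₀).range (by
        rw [card_subPGL_range, card_pgl, (subfield_eq_top_iff F₀).1 hF₀])]
      exact le_top
    · refine le_of_eq (Subgroup.eq_of_le_of_card_ge (subPSL_le_lsub F₀) ?_).symm
      have c1 := card_subPSL_range F₀
      have c2 := card_lsub_mul (F := F)
      rw [(subfield_eq_top_iff F₀).1 hF₀] at c1
      exact le_of_eq (Nat.eq_of_mul_eq_mul_left (Nat.gcd_pos_of_pos_left _ two_pos) (c2.trans c1.symm))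
  obtain ⟨y, hy, hy'⟩ := hle (lsub_normal.conj_mem _ hm h⁻¹)
  have : y = ProjGenLinGroup.mk g := (MulAut.conj h⁻¹).injective hy'
  exact this ▸ hy

/-- A traceless matrix of determinant one inverting an element of order four. -/
theorem exists_inverter {K : Type*} [Field K] [Fintype K] [DecidableEq K] (h2 : (2 : K) ≠ 0)
    (A : GL (Fin 2) K) (h4 : ProjGenLinGroup.mk A ^ 4 = 1) (hne : ProjGenLinGroup.mk A ^ 2 ≠ 1) :
    ∃ w ∈ lsub K, w * ProjGenLinGroup.mk A = ProjGenLinGroup.mk A ^ 3 * w := by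
  obtain ⟨a, b, c, d, hM⟩ : ∃ a b c d : K, (A : Matrix (Fin 2) (Fin 2) K) = !![a, b; c, d] :=
    ⟨_, _, _, _, Matrix.eta_fin_two _⟩
  have hdet : a * d - b * c ≠ 0 := by
    have := A.det_ne_zero
    rwa [hM, Matrix.det_fin_two_of] at this
  have hdisc : (a - d) * (a - d) + 4 * (b * c) ≠ 0 := by
    intro h0
    rw [← map_pow, ← map_one ProjGenLinGroup.mk] at h4
    obtain ⟨u, hu⟩ := ProjGenLinGroup.mk_eq_mk_iff.1 h4
    have h' := congrArg (fun g : GL (Fin 2) K => (g : Matrix (Fin 2) (Fin 2) K)) hu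
    rw [coe_mul_scalar, Units.val_pow_eq_pow_val, hM, Units.val_one,
      show (4 : ℕ) = 2 + 2 from rfl, pow_add, pow_two] at h'
    have e1 := congrFun (congrFun h' 0) 1
    have e2 := congrFun (congrFun h' 1) 0
    simp [u.ne_zero] at e1 e2
    have hs : a + d ≠ 0 := fun hs => hdet (by
      have : (4 : K) * (a * d - b * c) = 0 := by linear_combination (a + d) * hs - h0
      refine (mul_eq_zero.1 this).resolve_left ?_
      rw [show (4 : K) = 2 * 2 by norm_num]; exact mul_ne_zero h2 h2)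
    have hb : b = 0 := (mul_eq_zero.1 (show b * (a + d) ^ 3 = 0 by
      linear_combination 2 * e1 - b * (a + d) * h0)).resolve_right (pow_ne_zero _ hs)
    have hc : c = 0 := (mul_eq_zero.1 (show c * (a + d) ^ 3 = 0 by
      linear_combination 2 * e2 - c * (a + d) * h0)).resolve_right (pow_ne_zero _ hs)
    subst hb hc
    have had : a = d := sub_eq_zero.1 (mul_self_eq_zero.1 (by linear_combination h0))
    refine hne ?_
    have hA : ProjGenLinGroup.mk A = 1 := by
      rw [← map_one ProjGenLinGroup.mk, eq_comm, ProjGenLinGroup.mk_eq_mk_iff]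
      refine ⟨Units.mk0 a (fun ha => hdet (by simp [ha])), Units.ext ?_⟩
      rw [coe_mul_scalar, hM, Units.val_one, Units.val_mk0, had]
      ext m n; fin_cases m <;> fin_cases n <;> simp
    rw [hA, one_pow]
  obtain ⟨x, y, z, hl, hq⟩ : ∃ x y z : K, (a - d) * x + b * z + c * y = 0 ∧ -(x * x) - y * z = 1 := by
    have hodd : Fintype.card K % 2 = 1 := FiniteField.odd_card_of_char_ne_two (fun h => h2 (by
      have := ringChar.Nat.cast_ringChar (R := K)
      rwa [h, Nat.cast_ofNat] at this))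
    have hsol : ∀ k : K, k ≠ 0 → ∃ u w : K, u * u - k * (w * w) = -1 := by
      intro k hk
      obtain ⟨u, w, huw⟩ := FiniteField.exists_root_sum_quadratic
        (f := Polynomial.C (1 : K) * Polynomial.X ^ 2 + Polynomial.C 0 * Polynomial.X + Polynomial.C 0)
        (g := Polynomial.C (-k) * Polynomial.X ^ 2 + Polynomial.C 0 * Polynomial.X + Polynomial.C 1)
        (Polynomial.degree_quadratic one_ne_zero) (Polynomial.degree_quadratic (neg_ne_zero.2 hk)) hodd
      simp at huw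
      exact ⟨u, w, by linear_combination huw⟩
    by_cases hc : c = 0
    · by_cases hb : b = 0
      · exact ⟨0, 1, -1, by rw [hb, hc]; ring, by ring⟩
      · obtain ⟨u, w, huw⟩ := hsol (((a - d) * (a - d) + 4 * (b * c)) / (4 * (b * b)))
          (div_ne_zero hdisc (mul_ne_zero (by
            rw [show (4 : K) = 2 * 2 by norm_num]; exact mul_ne_zero h2 h2) (mul_ne_zero hb hb)))
        refine ⟨u + (a - d) * w / (2 * b), w,
          -((a - d) * (u + (a - d) * w / (2 * b)) + c * w) / b, by field_simp; ring, ?_⟩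
        rw [← neg_inj, ← huw, show (4 : K) = 2 * 2 by norm_num]
        field_simp
        ring
    · obtain ⟨u, w, huw⟩ := hsol (((a - d) * (a - d) + 4 * (b * c)) / (4 * (c * c)))
        (div_ne_zero hdisc (mul_ne_zero (by
          rw [show (4 : K) = 2 * 2 by norm_num]; exact mul_ne_zero h2 h2) (mul_ne_zero hc hc)))
      refine ⟨u + (a - d) * w / (2 * c),
        -((a - d) * (u + (a - d) * w / (2 * c)) + b * w) / c, w, by field_simp; ring, ?_⟩
      rw [← neg_inj, ← huw, show (4 : K) = 2 * 2 by norm_num]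
      field_simp
      ring
  let B : GL (Fin 2) K := GeneralLinearGroup.mkOfDetNeZero !![x, y; z, -x]
    (by rw [Matrix.det_fin_two_of, show x * -x - y * z = 1 by linear_combination hq]; exact one_ne_zero)
  have hB : (B : Matrix (Fin 2) (Fin 2) K) = !![x, y; z, -x] := rfl
  refine ⟨ProjGenLinGroup.mk B, (mk_mem_lsub_iff B).2 (by
    rw [hB, Matrix.det_fin_two_of, show x * -x - y * z = 1 by linear_combination hq]
    exact IsSquare.one), ?_⟩
  have hinv : ∀ C : GL (Fin 2) K, (C : Matrix (Fin 2) (Fin 2) K) 1 1 =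
      -(C : Matrix (Fin 2) (Fin 2) K) 0 0 → ProjGenLinGroup.mk C * ProjGenLinGroup.mk C = 1 := by
    intro C hC
    rw [← map_mul, ← map_one ProjGenLinGroup.mk, eq_comm, ProjGenLinGroup.mk_eq_mk_iff]
    refine ⟨Units.mk0 (-(C : Matrix (Fin 2) (Fin 2) K).det) (neg_ne_zero.2 C.det_ne_zero), Units.ext ?_⟩
    rw [coe_mul_scalar, Units.val_one, Units.val_mul, Units.val_mk0, Matrix.det_fin_two]
    ext m n
    fin_cases m <;> fin_cases n <;> simp [Matrix.mul_apply, hC] <;> ring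
  set w := ProjGenLinGroup.mk B with hwdef
  set t := ProjGenLinGroup.mk A
  have hw : w * w = 1 := hinv B (by rw [hB]; simp)
  have hwt : w * t * (w * t) = 1 := by
    rw [hwdef, ← map_mul]
    refine hinv _ ?_
    rw [Units.val_mul, hB, hM]
    simp
    linear_combination hl
  have ht : t * (t ^ 3) = 1 := by rw [← pow_succ']; exact h4
  calc w * t = (w * t * (w * t)) * (t⁻¹ * w⁻¹) := by group
    _ = t⁻¹ * w⁻¹ := by rw [hwt, one_mul]
    _ = t ^ 3 * w := by rw [inv_eq_of_mul_eq_one_right ht, inv_eq_of_mul_eq_one_right hw]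

/-- The case list over a prime field: everything of determinant one, or `S₄`. -/
theorem sl_or_perm_four [Fintype F] {p : ℕ} (hp : p.Prime) (hcard : Fintype.card F = p) {i : F}
    (hi : i * i = -1) (h2 : (2 : F) ≠ 0) (H : Subgroup (GL (Fin 2) F))
    (hscal : ∀ u : Fˣ, GeneralLinearGroup.scalar (Fin 2) u ∈ H) {T S : GL (Fin 2) F} (hTH : T ∈ H)
    (hSH : S ∈ H) (hT : (T : Matrix (Fin 2) (Fin 2) F) = !![1, 0; 0, i])
    {a b c d : F} (hS : (S : Matrix (Fin 2) (Fin 2) F) = !![a, b; c, d])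
    (ha : a ≠ 0) (hb : b ≠ 0) (hc : c ≠ 0) (hS2 : a * b + b * d ≠ 0) :
    (ProjGenLinGroup.mk T ^ 4 = 1 ∧ ProjGenLinGroup.mk T ^ 2 ≠ 1) ∧
      ((∀ g : GL (Fin 2) F, (g : Matrix (Fin 2) (Fin 2) F).det = 1 → g ∈ H) ∨
        Nonempty (H.map (ProjGenLinGroup.mk (n := Fin 2) (R := F)) ≃* Equiv.Perm (Fin 4))) := by
  classical
  have : Fact p.Prime := ⟨hp⟩
  have : CharP F p := charP_of_card_eq_prime (by simpa using hcard)
  refine (classify_quarter hi h2 H hscal hTH hSH hT hS ha hb hc hS2).imp_right (Or.imp_left ?_)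
  rintro ⟨F₀, h, -, he⟩
  obtain ⟨r, hr1, hr⟩ := card_subfield_pow F₀
  refine sl_of_top hscal ((subfield_eq_top_iff _).2 ?_) he
  have hd : Nat.card F₀ ∣ p := hcard ▸ hr ▸ dvd_pow_self _ (by omega)
  rcases (Nat.dvd_prime hp).1 hd with h | h
  · exact absurd h (Finite.one_lt_card (α := F₀)).ne'
  · exact h.trans hcard.symm

/-- A group with `diag(1, i)` and `!![1, 3; -1, 1]` contains an element with zero diagonal. -/
theorem exists_antidiag [Fintype F] {i : F} (hi : i * i = -1) (h2 : (2 : F) ≠ 0) (h3 : (3 : F) ≠ 0)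
    (H : Subgroup (GL (Fin 2) F))
    (hscal : ∀ u : Fˣ, GeneralLinearGroup.scalar (Fin 2) u ∈ H)
    {T D : GL (Fin 2) F} (hTH : T ∈ H) (hDH : D ∈ H)
    (hT : (T : Matrix (Fin 2) (Fin 2) F) = !![1, 0; 0, i])
    (hD : (D : Matrix (Fin 2) (Fin 2) F) = !![1, 3; -1, 1]) :
    ∃ g ∈ H, (g : Matrix (Fin 2) (Fin 2) F) 0 0 = 0 ∧ (g : Matrix (Fin 2) (Fin 2) F) 1 1 = 0 := by
  classical
  obtain ⟨⟨ht4, ht2⟩, hcase⟩ := classify_quarter hi h2 H hscal hTH hDH hT hD
    one_ne_zero h3 (neg_ne_zero.2 one_ne_zero) (by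
      intro h
      exact mul_ne_zero h2 h3 (by linear_combination h))
  have ht : ProjGenLinGroup.mk T ∈ H.map ProjGenLinGroup.mk := ⟨T, hTH, rfl⟩
  obtain ⟨g, hg, h'⟩ : ∃ g ∈ H,
      ProjGenLinGroup.mk g * ProjGenLinGroup.mk T = ProjGenLinGroup.mk T ^ 3 * ProjGenLinGroup.mk g := by
    rcases hcase with ⟨F₀, h, -, he⟩ | ⟨⟨e⟩⟩
    · have hsub : (H.map ProjGenLinGroup.mk).map (MulAut.conj h⁻¹).toMonoidHom ≤ (subPGL F₀).range := by
        rcases he with he | he <;> rw [he]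
        exact subPSL_le_subPGL F₀
      obtain ⟨z, hz⟩ := hsub ⟨_, ht, rfl⟩
      simp only [MulEquiv.coe_toMonoidHom, MulAut.conj_apply, inv_inv] at hz
      obtain ⟨A, rfl⟩ := ProjGenLinGroup.mk_surjective z
      have : Fintype F₀ := Fintype.ofFinite _
      have h2' : (2 : F₀) ≠ 0 := fun e => h2 (by simpa [map_ofNat] using congrArg F₀.subtype e)
      obtain ⟨w, hwl, hw⟩ := exists_inverter h2' A
        (subPGL_injective F₀ (by
          rw [map_pow, map_one, hz]
          calc (h⁻¹ * ProjGenLinGroup.mk T * h) ^ 4 = h⁻¹ * ProjGenLinGroup.mk T ^ 4 * h := by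
                simp [pow_succ, mul_assoc]
            _ = 1 := by rw [ht4]; group))
        (fun e => ht2 (by
          have e' := congrArg (subPGL F₀) e
          rw [map_pow, map_one, hz] at e'
          calc ProjGenLinGroup.mk T ^ 2 = h * (h⁻¹ * ProjGenLinGroup.mk T * h) ^ 2 * h⁻¹ := by
                simp [pow_succ, mul_assoc]
            _ = 1 := by rw [e']; group))
      have hwH : subPGL F₀ w ∈ (H.map ProjGenLinGroup.mk).map (MulAut.conj h⁻¹).toMonoidHom := by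
        rcases he with he | he <;> rw [he]
        · exact ⟨w, rfl⟩
        · rw [range_subPSL]; exact Subgroup.mem_map_of_mem _ hwl
      obtain ⟨_, ⟨g, hg, rfl⟩, hgw⟩ := hwH
      simp only [MulEquiv.coe_toMonoidHom, MulAut.conj_apply, inv_inv] at hgw
      refine ⟨g, hg, ?_⟩
      have e' := congrArg (subPGL F₀) hw
      rw [map_mul, map_mul, map_pow, hz, ← hgw] at e'
      simp only [pow_succ, pow_zero, one_mul, mul_assoc, mul_inv_cancel_left] at e' ⊢
      exact mul_right_cancel (b := h) (by simpa [mul_assoc] using e')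
    · obtain ⟨τ, hτ⟩ := perm_four_inverse (e ⟨_, ht⟩) (by rw [← map_pow]; simp [Subtype.ext_iff, ht4])
        (by rw [← map_pow, ne_eq, map_eq_one_iff _ e.injective]; simpa [Subtype.ext_iff] using ht2)
      obtain ⟨⟨-, g, hg, rfl⟩, rfl⟩ := e.surjective τ
      rw [← map_pow, ← map_mul, ← map_mul] at hτ
      refine ⟨g, hg, ?_⟩
      simpa only [Subgroup.coe_mul, Subgroup.coe_pow] using congrArg Subtype.val (e.injective hτ)
  rw [← map_pow, ← map_mul, ← map_mul] at h'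
  obtain ⟨u, hu⟩ := ProjGenLinGroup.mk_eq_mk_iff.1 h'
  have hu' := congrArg (fun g : GL (Fin 2) F => (g : Matrix (Fin 2) (Fin 2) F)) hu
  rw [coe_mul_scalar] at hu'
  simp only [Units.val_mul, Units.val_pow_eq_pow_val, hT] at hu'
  have e00 := congrFun (congrFun hu' 0) 0
  have e01 := congrFun (congrFun hu' 0) 1
  have e11 := congrFun (congrFun hu' 1) 1
  simp [pow_succ, Matrix.mul_apply, hi] at e00 e01 e11
  have hi1 : i ≠ 1 := by
    rintro rfl
    exact h2 (by linear_combination hi)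
  have hdet := g.det_ne_zero
  rw [Matrix.det_fin_two] at hdet
  refine ⟨g, hg, ?_, ?_⟩
  · by_contra h0
    have hu1 : (u : F) = 1 := mul_right_cancel₀ h0 (by linear_combination e00)
    rw [hu1] at e01 e11
    have h01 : (g : Matrix (Fin 2) (Fin 2) F) 0 1 = 0 :=
      (mul_eq_zero.1 (show ((g : Matrix (Fin 2) (Fin 2) F) 0 1) * (i - 1) = 0 by
        linear_combination e01)).resolve_right (sub_ne_zero.2 hi1)
    have h11 : (g : Matrix (Fin 2) (Fin 2) F) 1 1 = 0 :=
      (mul_eq_zero.1 (show ((g : Matrix (Fin 2) (Fin 2) F) 1 1) * (2 * i) = 0 by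
        linear_combination e11)).resolve_right (mul_ne_zero h2 (by rintro rfl; simp at hi))
    rw [h01, h11] at hdet
    simp at hdet
  · by_contra h11
    have hi0 : i ≠ 0 := by rintro rfl; simp at hi
    have hu1 : (u : F) = -1 := mul_right_cancel₀ (mul_ne_zero hi0 h11) (by linear_combination e11)
    rw [hu1] at e01 e00
    have h00 : (g : Matrix (Fin 2) (Fin 2) F) 0 0 = 0 :=
      (mul_eq_zero.1 (show ((g : Matrix (Fin 2) (Fin 2) F) 0 0) * 2 = 0 by
        linear_combination -e00)).resolve_right h2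
    have h01 : (g : Matrix (Fin 2) (Fin 2) F) 0 1 = 0 :=
      (mul_eq_zero.1 (show ((g : Matrix (Fin 2) (Fin 2) F) 0 1) * (i + 1) = 0 by
        linear_combination -e01)).resolve_right (fun hh => h2 (by linear_combination (1 - i) * hh + hi))
    rw [h00, h01] at hdet
    simp at hdet

/-- In the `S₄` case the quaternion group is normalised. -/
theorem normalises_of_perm_four {i : F} (hi : i * i = -1) (h2 : (2 : F) ≠ 0)
    (H : Subgroup (GL (Fin 2) F)) {T W : GL (Fin 2) F} (hTH : T ∈ H) (hWH : W ∈ H)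
    (hT : (T : Matrix (Fin 2) (Fin 2) F) = !![1, 0; 0, i])
    (hW : (W : Matrix (Fin 2) (Fin 2) F) = !![1, i; i, 1])
    (htT : ProjGenLinGroup.mk T ^ 4 = 1 ∧ ProjGenLinGroup.mk T ^ 2 ≠ 1)
    (e : H.map (ProjGenLinGroup.mk (n := Fin 2) (R := F)) ≃* Equiv.Perm (Fin 4)) :
    ∀ g ∈ H, ∀ Y ∈ [!![(1 : F), 0; 0, -1], !![0, 1; 1, 0]],
        ∃ (c : F), ∃ Z ∈ [!![(1 : F), 0; 0, -1], !![0, 1; 1, 0], !![0, 1; -1, 0]],
          (g : Matrix (Fin 2) (Fin 2) F) * Y = c • (Z * g) := by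
  obtain ⟨ht4, ht2⟩ := htT
  have hi0 : i ≠ 0 := by rintro rfl; simp at hi
  intro g hg Y hY
  have hTT : ((T * T : GL (Fin 2) F) : Matrix (Fin 2) (Fin 2) F) = !![1, 0; 0, -1] := by
    rw [Units.val_mul, hT]; ext m n; fin_cases m <;> fin_cases n <;> simp [hi]
  have hWW : ((W * W : GL (Fin 2) F) : Matrix (Fin 2) (Fin 2) F) = (2 * i) • !![0, 1; 1, 0] := by
    rw [Units.val_mul, hW]; ext m n; fin_cases m <;> fin_cases n <;> simp [hi] <;> ring
  have hne : ∀ (A B : GL (Fin 2) F), ((A : Matrix (Fin 2) (Fin 2) F) 0 1 = 0) →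
      ((B : Matrix (Fin 2) (Fin 2) F) 0 1 ≠ 0) → ProjGenLinGroup.mk A ≠ ProjGenLinGroup.mk B := by
    intro A B hA hB h
    obtain ⟨u, hu⟩ := ProjGenLinGroup.mk_eq_mk_iff.1 h
    exact hB (by rw [← hu, coe_mul_scalar, Matrix.smul_apply, hA, smul_zero])
  have hw2 : ProjGenLinGroup.mk W ^ 2 ≠ 1 := by
    rw [pow_two, ← map_mul, ← map_one ProjGenLinGroup.mk]
    exact (hne 1 (W * W) (by simp) (by rw [hWW]; simp [h2, hi0])).symm
  have hw4 : ProjGenLinGroup.mk W ^ 4 = 1 := by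
    rw [show (4 : ℕ) = 2 + 2 from rfl, pow_add, pow_two, ← map_mul, ← map_mul]
    refine ((ProjGenLinGroup.mk_eq_mk_iff (g₁ := 1)).2
      ⟨Units.mk0 ((2 * i) * (2 * i)) (by simp [h2, hi0]), Units.ext ?_⟩).symm.trans (map_one _)
    rw [coe_mul_scalar, Units.val_one, Units.val_mul, hWW, Units.val_mk0]
    ext m n; fin_cases m <;> fin_cases n <;> simp <;> ring
  have htw : ProjGenLinGroup.mk T ^ 2 ≠ ProjGenLinGroup.mk W ^ 2 := by
    rw [pow_two, pow_two, ← map_mul, ← map_mul]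
    exact hne _ _ (by rw [hTT]; simp) (by rw [hWW]; simp [h2, hi0])
  have ht : ProjGenLinGroup.mk T ∈ H.map ProjGenLinGroup.mk := ⟨T, hTH, rfl⟩
  have hw : ProjGenLinGroup.mk W ∈ H.map ProjGenLinGroup.mk := ⟨W, hWH, rfl⟩
  have hgm : ProjGenLinGroup.mk g ∈ H.map ProjGenLinGroup.mk := ⟨g, hg, rfl⟩
  -- the element whose conjugate we study
  obtain ⟨C, k, hk, hC, hCc⟩ : ∃ (C : H.map (ProjGenLinGroup.mk (n := Fin 2) (R := F))) (k : F),
      k ≠ 0 ∧ (∃ C₀ : GL (Fin 2) F, (C : PGL(2, F)) = ProjGenLinGroup.mk C₀ ∧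
        (C₀ : Matrix (Fin 2) (Fin 2) F) = k • Y) ∧
      (e C = e ⟨_, ht⟩ ^ 2 ∨ e C = e ⟨_, hw⟩ ^ 2) := by
    simp only [List.mem_cons, List.not_mem_nil, or_false] at hY
    rcases hY with rfl | rfl
    · exact ⟨⟨_, ht⟩ ^ 2, 1, one_ne_zero, ⟨T * T, by simp [pow_two], by rw [hTT, one_smul]⟩,
        Or.inl (map_pow e _ 2)⟩
    · exact ⟨⟨_, hw⟩ ^ 2, 2 * i, mul_ne_zero h2 hi0, ⟨W * W, by simp [pow_two], hWW⟩,
        Or.inr (map_pow e _ 2)⟩
  obtain ⟨C₀, hC₁, hC₂⟩ := hC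
  have key := perm_four_conj (σ := e ⟨_, ht⟩) (τ := e ⟨_, hw⟩)
    (by rw [← map_pow]; simp [Subtype.ext_iff, ht4])
    (by rw [← map_pow, ne_eq, map_eq_one_iff _ e.injective]; simpa [Subtype.ext_iff] using ht2)
    (by rw [← map_pow]; simp [Subtype.ext_iff, hw4])
    (by rw [← map_pow, ne_eq, map_eq_one_iff _ e.injective]; simpa [Subtype.ext_iff] using hw2)
    (by rw [← map_pow, ← map_pow, e.injective.ne_iff]; simpa [Subtype.ext_iff] using htw)
    (e ⟨_, hgm⟩) hCc
  simp only [← map_pow, ← map_mul, ← map_inv, e.injective.eq_iff] at key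
  simp only [Subtype.ext_iff, Subgroup.coe_mul, Subgroup.coe_inv, Subgroup.coe_pow, hC₁, pow_two,
    mul_inv_eq_iff_eq_mul, ← map_mul] at key
  -- back to matrices
  have fin : ∀ (Z₀ : GL (Fin 2) F) (Z : Matrix (Fin 2) (Fin 2) F) (l : F),
      (Z₀ : Matrix (Fin 2) (Fin 2) F) = l • Z →
      ProjGenLinGroup.mk (g * C₀) = ProjGenLinGroup.mk (Z₀ * g) →
      ∃ c : F, (g : Matrix (Fin 2) (Fin 2) F) * Y = c • (Z * g) := by
    intro Z₀ Z l hZ h
    obtain ⟨u, hu⟩ := ProjGenLinGroup.mk_eq_mk_iff.1 h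
    have hu' := congrArg (fun x : GL (Fin 2) F => (x : Matrix (Fin 2) (Fin 2) F)) hu
    rw [coe_mul_scalar] at hu'
    simp only [Units.val_mul, hC₂, hZ, Matrix.mul_smul, Matrix.smul_mul,
      smul_smul] at hu'
    refine ⟨((u : F) * k)⁻¹ * l, ?_⟩
    rw [mul_smul, ← hu', inv_smul_smul₀ (mul_ne_zero u.ne_zero hk)]
  rcases key with h | h | h
  · obtain ⟨c, hc⟩ := fin (T * T) _ 1 (by rw [hTT, one_smul]) (by simpa [mul_assoc] using h)
    exact ⟨c, _, by simp, hc⟩
  · obtain ⟨c, hc⟩ := fin (W * W) _ (2 * i) hWW (by simpa [mul_assoc] using h)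
    exact ⟨c, _, by simp, hc⟩
  · obtain ⟨c, hc⟩ := fin (T * T * (W * W)) !![0, 1; -1, 0] (2 * i) (by
      rw [Units.val_mul, hTT, hWW]; ext m n; fin_cases m <;> fin_cases n <;> simp)
      (by simpa [mul_assoc] using h)
    exact ⟨c, _, by simp, hc⟩

/-- A group with both quarter turns contains `SL₂` or normalises the quaternion group. -/
theorem sl_or_normalises [Fintype F] {p : ℕ} (hp : p.Prime) (hcard : Fintype.card F = p) {i : F}
    (hi : i * i = -1) (h2 : (2 : F) ≠ 0) (H : Subgroup (GL (Fin 2) F))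
    (hscal : ∀ u : Fˣ, GeneralLinearGroup.scalar (Fin 2) u ∈ H)
    {T W : GL (Fin 2) F} (hTH : T ∈ H) (hWH : W ∈ H)
    (hT : (T : Matrix (Fin 2) (Fin 2) F) = !![1, 0; 0, i])
    (hW : (W : Matrix (Fin 2) (Fin 2) F) = !![1, i; i, 1]) :
    (∀ g : GL (Fin 2) F, (g : Matrix (Fin 2) (Fin 2) F).det = 1 → g ∈ H) ∨
      ∀ g ∈ H, ∀ Y ∈ [!![(1 : F), 0; 0, -1], !![0, 1; 1, 0]],
        ∃ (c : F), ∃ Z ∈ [!![(1 : F), 0; 0, -1], !![0, 1; 1, 0], !![0, 1; -1, 0]],
          (g : Matrix (Fin 2) (Fin 2) F) * Y = c • (Z * g) := by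
  have hi0 : i ≠ 0 := by rintro rfl; simp at hi
  obtain ⟨ht, h | ⟨⟨e⟩⟩⟩ := sl_or_perm_four hp hcard hi h2 H hscal hTH hWH hT hW
    one_ne_zero hi0 hi0 (fun h => mul_ne_zero h2 hi0 (by linear_combination h))
  · exact Or.inl h
  · exact Or.inr (normalises_of_perm_four hi h2 H hTH hWH hT hW ht e)

end Field

section Plane

variable {F : Type*} [Field F] {V : Type*} [AddCommGroup V] [Module F V]

/-- A plane with `R` has coordinates in which `R` is the quaternion group. -/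
lemma exists_coords [FiniteDimensional F V] {i : F} {R : Set (Module.End F V)} (hD : Data i R)
    (h2 : Module.finrank F V = 2) :
    ∃ b : Module.Basis (Fin 2) F V, Matrix.toLinAlgEquiv b !![1, 0; 0, -1] ∈ R ∧
      Matrix.toLinAlgEquiv b !![0, 1; 1, 0] ∈ R := by
  have : Nontrivial V := Module.nontrivial_of_finrank_pos (R := F) (by omega)
  obtain ⟨r, hrR, hr⟩ : ∃ r ∈ R, NS r := by
    by_contra hcon
    push Not at hcon
    have hle : Submodule.span F R ≤ Submodule.span F {(1 : Module.End F V)} :=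
      Submodule.span_le.2 fun r hr => by
        have := hcon r hr
        unfold NS at this
        push Not at this
        obtain ⟨c, rfl⟩ := this
        exact Submodule.smul_mem _ c (Submodule.mem_span_singleton_self _)
    rw [hD.span_eq] at hle
    have h4 := (Submodule.finrank_mono hle).trans (finrank_span_singleton (one_ne_zero' _)).le
    rw [finrank_top, Module.finrank_linearMap, h2] at h4
    omega
  obtain ⟨c, hc, hxR, hx⟩ := hD.exists_sq_one hrR
  have hns := hr.smul hc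
  set x := c • r with hxdef
  obtain ⟨a, haR, ha, hxa⟩ := hD.exists_anticomm hxR hns
  have := nontrivial_eig hD hxR hx hns
  obtain ⟨⟨v, hv⟩, hv0⟩ := exists_ne (0 : Eig x)
  have hv0' : v ≠ 0 := fun h => hv0 (Subtype.ext h)
  rw [mem_eig] at hv
  have haa : a (a v) = v := by simpa using congrArg (fun g : Module.End F V => g v) ha
  have hxav : x (a v) = -a v := by
    simpa [hv] using congrArg (fun g : Module.End F V => g v) hxa
  have hli : LinearIndependent F ![v, a v] := by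
    refine LinearIndependent.pair_iff.2 fun m n h => ?_
    have h' := congrArg x h
    rw [map_add, map_smul, map_smul, hv, hxav, map_zero] at h'
    have hm : (2 * m) • v = 0 := by
      linear_combination (norm := module) h + h'
    have hm0 : m = 0 := ((mul_eq_zero.1 ((smul_eq_zero.1 hm).resolve_right hv0')).resolve_left
      hD.two_ne)
    rw [hm0, zero_smul, zero_add] at h
    refine ⟨hm0, (smul_eq_zero.1 h).resolve_right fun h0 => hv0' ?_⟩
    rw [← haa, h0, map_zero]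
  let b := basisOfLinearIndependentOfCardEqFinrank hli (by simp [h2])
  have hb : ⇑b = ![v, a v] := coe_basisOfLinearIndependentOfCardEqFinrank hli _
  refine ⟨b, ?_, ?_⟩
  · convert hxR using 1
    refine b.ext fun j => ?_
    rw [Matrix.toLinAlgEquiv_self, Fin.sum_univ_two, hb]
    fin_cases j <;> simp [hv, hxav]
  · convert haR using 1
    refine b.ext fun j => ?_
    rw [Matrix.toLinAlgEquiv_self, Fin.sum_univ_two, hb]
    fin_cases j <;> simp [haa]

lemma sign_matrix_cases {M : Matrix (Fin 2) (Fin 2) F} (h2 : (2 : F) ≠ 0)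
    (hX : M * !![1, 0; 0, -1] = !![1, 0; 0, -1] * M ∨ M * !![1, 0; 0, -1] = -(!![1, 0; 0, -1] * M))
    (hA : M * !![0, 1; 1, 0] = !![0, 1; 1, 0] * M ∨ M * !![0, 1; 1, 0] = -(!![0, 1; 1, 0] * M)) :
    ∃ (c : F), ∃ Z ∈ [(1 : Matrix (Fin 2) (Fin 2) F), !![1, 0; 0, -1], !![0, 1; 1, 0],
      !![0, 1; -1, 0]], M = c • Z := by
  have key : ∀ z : F, z = -z → z = 0 := fun z h =>
    (mul_eq_zero.1 (show 2 * z = 0 by linear_combination h)).resolve_left h2
  rw [Matrix.eta_fin_two M] at hX hA ⊢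
  rcases hX with hX | hX <;> rcases hA with hA | hA
  all_goals simp [← Matrix.ext_iff, Fin.forall_fin_two] at hX hA
  · refine ⟨M 0 0, 1, by simp, ?_⟩
    simp [← Matrix.ext_iff, Fin.forall_fin_two, key _ hX.1.symm, key _ hX.2, hA.2.1]
  · refine ⟨M 0 0, !![1, 0; 0, -1], by simp, ?_⟩
    simp [← Matrix.ext_iff, Fin.forall_fin_two, key _ hX.1.symm, key _ hX.2, hA.2.1]
  · refine ⟨M 0 1, !![0, 1; 1, 0], by simp, ?_⟩
    simp [← Matrix.ext_iff, Fin.forall_fin_two, key _ hX.1, key _ hX.2.symm, hA.1.1]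
  · refine ⟨M 0 1, !![0, 1; -1, 0], by simp, ?_⟩
    simp [← Matrix.ext_iff, Fin.forall_fin_two, key _ hX.1, key _ hX.2.symm, hA.1.1]

/-- `G` in coordinates. -/
lemma exists_coordGroup {i : F} {R G : Set (Module.End F V)} (hD : Data i R) (hG : Grp i R G)
    (b : Module.Basis (Fin 2) F V) (hxR : Matrix.toLinAlgEquiv b !![1, 0; 0, -1] ∈ R)
    (haR : Matrix.toLinAlgEquiv b !![0, 1; 1, 0] ∈ R) :
    ∃ H : Subgroup (GL (Fin 2) F),
      (∀ g : GL (Fin 2) F, g ∈ H ↔ Matrix.toLinAlgEquiv b (g : Matrix (Fin 2) (Fin 2) F) ∈ G) ∧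
      (∀ u : Fˣ, GeneralLinearGroup.scalar (Fin 2) u ∈ H) ∧
      ∃ T ∈ H, ∃ W ∈ H, (T : Matrix (Fin 2) (Fin 2) F) = !![1, 0; 0, i] ∧
        (W : Matrix (Fin 2) (Fin 2) F) = !![1, i; i, 1] := by
  set Φ := Matrix.toLinAlgEquiv b with hΦ
  let H : Subgroup (GL (Fin 2) F) :=
    { carrier := {g | Φ (g : Matrix (Fin 2) (Fin 2) F) ∈ G}
      one_mem' := by simpa using hG.one_mem
      mul_mem' := fun {g g'} hg hg' => by
        simpa only [Set.mem_ofPred_eq, Units.val_mul, map_mul] using hG.mul_mem _ hg _ hg'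
      inv_mem' := fun {g} hg => by
        obtain ⟨f, hf, h1, -⟩ := hG.inv_mem _ hg
        show Φ _ ∈ G
        rwa [left_inv_eq_right_inv (b := Φ ((g⁻¹ : GL (Fin 2) F) : Matrix (Fin 2) (Fin 2) F))
          (by rw [← map_mul, ← Units.val_mul, inv_mul_cancel, Units.val_one, map_one]) h1] }
  have hscal : ∀ u : Fˣ, GeneralLinearGroup.scalar (Fin 2) u ∈ H := fun u => by
    show Φ _ ∈ G
    rw [GeneralLinearGroup.coe_scalar, Matrix.scalar_apply, ← Matrix.smul_one_eq_diagonal,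
      map_smul, map_one]
    exact hG.smul_mem _ u.ne_zero
  have hi := hD.sq_i
  have hi1 : (1 - i : F) ≠ 0 := fun h => hD.two_ne (by linear_combination (1 + i) * h + hi)
  have hdT : (!![1, 0; 0, i] : Matrix (Fin 2) (Fin 2) F).det ≠ 0 := by
    simp [Matrix.det_fin_two, hD.i_ne]
  have hdW : (!![1, i; i, 1] : Matrix (Fin 2) (Fin 2) F).det ≠ 0 := by
    simp [Matrix.det_fin_two, hi, hD.two_ne, one_add_one_eq_two]
  set X : Matrix (Fin 2) (Fin 2) F := !![1, 0; 0, -1] with hX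
  set A : Matrix (Fin 2) (Fin 2) F := !![0, 1; 1, 0] with hA
  have hXX : X * X = 1 := by rw [hX]; ext m n; fin_cases m <;> fin_cases n <;> simp
  have hAA : A * A = 1 := by rw [hA]; ext m n; fin_cases m <;> fin_cases n <;> simp
  have hTH : GeneralLinearGroup.mkOfDetNeZero _ hdT ∈ H := by
    show Φ (GeneralLinearGroup.mkOfDetNeZero _ hdT : Matrix (Fin 2) (Fin 2) F) ∈ G
    have e : (!![1, 0; 0, i] : Matrix (Fin 2) (Fin 2) F) = (1 - i)⁻¹ • (1 + i • -X) := by
      rw [eq_inv_smul_iff₀ hi1, hX]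
      ext m n; fin_cases m <;> fin_cases n <;> simp
      · ring
      · linear_combination -hi
    show Φ !![1, 0; 0, i] ∈ G
    rw [e, map_smul, map_add, map_one, map_smul, map_neg]
    exact hG.smul_mem' (inv_ne_zero hi1) (hG.t_mem _ (hD.neg_mem hxR)
      (by rw [neg_mul_neg, ← map_mul, hXX, map_one]))
  have hWH : GeneralLinearGroup.mkOfDetNeZero _ hdW ∈ H := by
    show Φ !![1, i; i, 1] ∈ G
    have e : (!![1, i; i, 1] : Matrix (Fin 2) (Fin 2) F) = 1 + i • A := by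
      rw [hA]; ext m n; fin_cases m <;> fin_cases n <;> simp
    rw [e, map_add, map_one, map_smul]
    exact hG.t_mem _ haR (by rw [← map_mul, hAA, map_one])
  exact ⟨H, fun g => Iff.rfl, hscal, _, hTH, _, hWH, rfl, rfl⟩

/-- Normalisation in coordinates gives normalisation of `R`. -/
lemma nrm_of_matrices [Nontrivial V] {i : F} {R G : Set (Module.End F V)} (hD : Data i R)
    (hG : Grp i R G) (b : Module.Basis (Fin 2) F V)
    (hxR : Matrix.toLinAlgEquiv b !![1, 0; 0, -1] ∈ R)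
    (haR : Matrix.toLinAlgEquiv b !![0, 1; 1, 0] ∈ R) {H : Subgroup (GL (Fin 2) F)}
    (hH : ∀ g : GL (Fin 2) F, g ∈ H ↔ Matrix.toLinAlgEquiv b (g : Matrix (Fin 2) (Fin 2) F) ∈ G)
    (h : ∀ g ∈ H, ∀ Y ∈ [!![(1 : F), 0; 0, -1], !![0, 1; 1, 0]],
        ∃ (c : F), ∃ Z ∈ [!![(1 : F), 0; 0, -1], !![0, 1; 1, 0], !![0, 1; -1, 0]],
          (g : Matrix (Fin 2) (Fin 2) F) * Y = c • (Z * g)) :
    ∀ g ∈ G, Nrm R g := by
  set Φ := Matrix.toLinAlgEquiv b with hΦ
  set X : Matrix (Fin 2) (Fin 2) F := !![1, 0; 0, -1] with hX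
  set A : Matrix (Fin 2) (Fin 2) F := !![0, 1; 1, 0] with hA
  intro g hg
  obtain ⟨M, rfl⟩ := Φ.surjective g
  have hu := hG.isUnit hg
  have huM : IsUnit M := by
    have := hu.map Φ.symm
    rwa [AlgEquiv.symm_apply_apply] at this
  obtain ⟨gM, hgM⟩ := huM
  have hY := h gM ((hH gM).2 (by rwa [hgM]))
  rw [hgM] at hY
  -- normalisation up to scalars
  have hZR : ∀ Z ∈ [(1 : Matrix (Fin 2) (Fin 2) F), X, A, !![0, 1; -1, 0]], Φ Z ∈ R := by
    have e : (!![0, 1; -1, 0] : Matrix (Fin 2) (Fin 2) F) = X * A := by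
      rw [hX, hA]; ext m n; fin_cases m <;> fin_cases n <;> simp
    simp [e, hxR, haR, hD.one_mem, hD.mul_mem _ hxR _ haR]
  have hmove : ∀ Z ∈ [(1 : Matrix (Fin 2) (Fin 2) F), X, A, !![0, 1; -1, 0]],
      ∃ c : F, ∃ Z' : Matrix (Fin 2) (Fin 2) F, Φ Z' ∈ R ∧ M * Z = c • (Z' * M) := by
    have hXc : ∃ c : F, ∃ Z' : Matrix (Fin 2) (Fin 2) F, Φ Z' ∈ R ∧ M * X = c • (Z' * M) := by
      obtain ⟨c, Z, hZ, e⟩ := hY X (by simp [hX])
      exact ⟨c, Z, hZR Z (List.mem_cons_of_mem _ hZ), e⟩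
    have hAc : ∃ c : F, ∃ Z' : Matrix (Fin 2) (Fin 2) F, Φ Z' ∈ R ∧ M * A = c • (Z' * M) := by
      obtain ⟨c, Z, hZ, e⟩ := hY A (by simp [hA])
      exact ⟨c, Z, hZR Z (List.mem_cons_of_mem _ hZ), e⟩
    intro Z hZ
    simp only [List.mem_cons, List.not_mem_nil, or_false] at hZ
    rcases hZ with rfl | rfl | rfl | rfl
    · exact ⟨1, 1, by simpa using hD.one_mem, by simp⟩
    · exact hXc
    · exact hAc
    · obtain ⟨c, Z₁, hZ₁, e₁⟩ := hXc
      obtain ⟨d, Z₂, hZ₂, e₂⟩ := hAc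
      refine ⟨c * d, Z₁ * Z₂, by rw [map_mul]; exact hD.mul_mem _ hZ₁ _ hZ₂, ?_⟩
      have e : (!![0, 1; -1, 0] : Matrix (Fin 2) (Fin 2) F) = X * A := by
        rw [hX, hA]; ext m n; fin_cases m <;> fin_cases n <;> simp
      rw [e, ← Matrix.mul_assoc, e₁, Matrix.smul_mul, Matrix.mul_assoc, e₂, Matrix.mul_smul,
        smul_smul, ← Matrix.mul_assoc]
  intro r hr
  obtain ⟨N, rfl⟩ := Φ.surjective r
  obtain ⟨k, Z, hZ, rfl⟩ := sign_matrix_cases hD.two_ne (M := N)
    ((hD.comm_sign _ hr _ hxR).imp (fun h => Φ.injective (by simpa only [map_mul] using h))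
      (fun h => Φ.injective (by simpa only [map_mul, map_neg] using h)))
    ((hD.comm_sign _ hr _ haR).imp (fun h => Φ.injective (by simpa only [map_mul] using h))
      (fun h => Φ.injective (by simpa only [map_mul, map_neg] using h)))
  obtain ⟨c, Z', hZ', e⟩ := hmove Z hZ
  have he : Φ M * Φ (k • Z) = (k * c) • Φ Z' * Φ M := by
    rw [← map_mul, Matrix.mul_smul, e, smul_smul, map_smul, map_mul, smul_mul_assoc]
  refine ⟨_, hD.smul_mem_of_sq' hZ' ?_, he⟩
  refine (hD.sq_sign _ hr).imp (fun h => hu.mul_right_cancel ?_) (fun h => hu.mul_right_cancel ?_)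
  all_goals rw [mul_assoc, ← he, ← mul_assoc, ← he, mul_assoc, h]
  · rw [mul_one, one_mul]
  · rw [mul_neg, mul_one, neg_one_mul]

/-- The base case: in dimension two `G` normalises `R` or contains every map of determinant one. -/
theorem normalises_or_sl_of_two [Fintype F] [FiniteDimensional F V] {p : ℕ} (hp : p.Prime)
    (hcard : Fintype.card F = p) {i : F} {R G : Set (Module.End F V)} (hD : Data i R)
    (hG : Grp i R G) (h2 : Module.finrank F V = 2) :
    (∀ g ∈ G, Nrm R g) ∨ ∀ f : Module.End F V, LinearMap.det f = 1 → f ∈ G := by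
  classical
  obtain ⟨b, hxR, haR⟩ := exists_coords hD h2
  have : Nontrivial V := Module.nontrivial_of_finrank_pos (R := F) (by omega)
  obtain ⟨H, hH, hscal, T, hTH, W, hWH, hT, hW⟩ := exists_coordGroup hD hG b hxR haR
  rcases sl_or_normalises hp hcard hD.sq_i hD.two_ne H hscal hTH hWH hT hW with h | h
  · right
    intro f hf
    obtain ⟨M, rfl⟩ := (Matrix.toLinAlgEquiv b).surjective f
    have hdet : M.det = 1 := by
      rw [← hf]; exact (LinearMap.det_toLin b M).symm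
    exact (hH (GeneralLinearGroup.mkOfDetNeZero M (by rw [hdet]; exact one_ne_zero))).1 (h _ hdet)
  · exact Or.inl (nrm_of_matrices hD hG b hxR haR hH h)

end Plane

end Cfsg.Agent.MaxSub.CSix
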