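import Cfsg.Agent.MaxSub.CSix.Key
import Cfsg.Agent.MaxSub.CSix.Two
import Cfsg.Agent.Linear.Transvection

/-!
The linear symplectic-type case over a prime field: a group containing the scalars, `R` and the
quarter turns of its involutions normalises `R` or contains every map of determinant one.
-/

set_option autoImplicit false
set_option linter.unusedSectionVars false

namespace Cfsg.Agent.MaxSub.CSix

open Matrix

section Blocks

variable {F : Type*} [Field F] {ι : Type*} [Fintype ι] [DecidableEq ι]

/-- The monomial matrix sending the basis vector `j` to `d j` times the basis vector `σ j`. -/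
def monomial (σ : Equiv.Perm ι) (d : ι → F) : Matrix ι ι F :=
  (Matrix.diagonal fun r => d (σ.symm r)).submatrix id σ

lemma monomial_apply (σ : Equiv.Perm ι) (d : ι → F) (r j : ι) :
    monomial σ d r j = if r = σ j then d j else 0 := by
  unfold monomial
  by_cases h : r = σ j
  · subst h; simp
  · simp [h]

lemma det_monomial (σ : Equiv.Perm ι) (d : ι → F) :
    (monomial σ d).det = ((Equiv.Perm.sign σ : ℤ) : F) * ∏ j, d j := by
  rw [monomial, Matrix.det_permute', Matrix.det_diagonal, Equiv.prod_comp σ.symm d]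

lemma monomial_mul_single (σ : Equiv.Perm ι) (d : ι → F) (k l : ι) (c : F) :
    monomial σ d * Matrix.single k l c = Matrix.single (σ k) l (d k * c) := by
  ext r j
  by_cases hj : j = l
  · subst hj
    rw [Matrix.mul_single_apply_same, monomial_apply]
    by_cases hr : r = σ k
    · subst hr; simp
    · simp [hr, Ne.symm hr]
  · rw [Matrix.mul_single_apply_of_ne _ _ _ _ _ hj]
    simp [Ne.symm hj]

lemma single_mul_monomial (σ : Equiv.Perm ι) (d : ι → F) (a l : ι) (c : F) :
    Matrix.single a (σ l) c * monomial σ d = Matrix.single a l (c * d l) := by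
  ext r j
  by_cases hr : r = a
  · subst hr
    rw [Matrix.single_mul_apply_same, monomial_apply]
    by_cases hj : j = l
    · subst hj; simp
    · simp [hj, Ne.symm hj]
  · rw [Matrix.single_mul_apply_of_ne _ _ _ _ _ hr]
    simp [Ne.symm hr]

lemma exists_monomial (k : ι) (σ : Equiv.Perm ι) :
    ∃ d : ι → F, (∀ j ≠ k, d j = 1) ∧ d k * d k = 1 ∧ (monomial σ d).det = 1 := by
  have hs : ((Equiv.Perm.sign σ : ℤ) : F) * ((Equiv.Perm.sign σ : ℤ) : F) = 1 := by
    rcases Int.units_eq_one_or (Equiv.Perm.sign σ) with h | h <;> simp [h]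
  refine ⟨Function.update (fun _ => 1) k ((Equiv.Perm.sign σ : ℤ) : F),
    fun j hj => by rw [Function.update_of_ne hj], by rwa [Function.update_self], ?_⟩
  rw [det_monomial, Finset.prod_update_of_mem (Finset.mem_univ k)]
  simpa using hs

lemma exists_perm_pair {k l a b : ι} (hkl : k ≠ l) (hab : a ≠ b) :
    ∃ σ : Equiv.Perm ι, σ k = a ∧ σ l = b := by
  refine ⟨Equiv.swap (Equiv.swap k a l) b * Equiv.swap k a, ?_, by simp⟩
  rw [Equiv.Perm.mul_apply, Equiv.swap_apply_left, Equiv.swap_apply_of_ne_of_ne ?_ hab]
  intro h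
  exact hkl ((Equiv.swap k a).injective ((Equiv.swap_apply_left k a).trans h))

lemma transvection_inl (a b : ι) (c : F) :
    Matrix.transvection (Sum.inl a) (Sum.inl b) c =
      Matrix.fromBlocks (Matrix.transvection a b c) 0 0 (1 : Matrix ι ι F) := by
  ext (r | r) (j | j) <;> simp [Matrix.transvection, Matrix.single_apply, Matrix.one_apply]

lemma transvection_inr (a b : ι) (c : F) :
    Matrix.transvection (Sum.inr a) (Sum.inr b) c =
      Matrix.fromBlocks (1 : Matrix ι ι F) 0 0 (Matrix.transvection a b c) := by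
  ext (r | r) (j | j) <;> simp [Matrix.transvection, Matrix.single_apply, Matrix.one_apply]

lemma transvection_inr_inl (a b : ι) (c : F) :
    Matrix.transvection (Sum.inr a) (Sum.inl b) c =
      Matrix.fromBlocks (1 : Matrix ι ι F) 0 (Matrix.single a b c) 1 := by
  ext (r | r) (j | j) <;> simp [Matrix.transvection, Matrix.single_apply, Matrix.one_apply]

lemma transvection_inl_inr (a b : ι) (c : F) :
    Matrix.transvection (Sum.inl a) (Sum.inr b) c =
      Matrix.fromBlocks (1 : Matrix ι ι F) (Matrix.single a b c) 0 1 := by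
  ext (r | r) (j | j) <;> simp [Matrix.transvection, Matrix.single_apply, Matrix.one_apply]

/-- A multiplicatively closed set of matrices that contains the transvections contains every
matrix of determinant one. -/
lemma mem_of_transvections [Nontrivial ι] {N : Set (Matrix ι ι F)}
    (hmul : ∀ A ∈ N, ∀ B ∈ N, A * B ∈ N)
    (h : ∀ a b : ι, a ≠ b → ∀ c, Matrix.transvection a b c ∈ N) (M : Matrix ι ι F)
    (hM : M.det = 1) : M ∈ N := by
  refine Cfsg.Agent.Linear.transvection_induction (fun A => (A : Matrix ι ι F) ∈ N) ?_ ?_ ⟨M, hM⟩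
  · intro a b hab c
    simpa [Matrix.SpecialLinearGroup.transvection_coe, Matrix.transvection] using h a b hab c
  · exact fun A B hA hB => hmul _ hA _ hB

/-- The group generated by the block diagonal subgroups and the quarter turns. -/
theorem all_of_blocks {i : F} (hi : i * i = -1) (h2 : (2 : F) ≠ 0)
    (GM : Set (Matrix (ι ⊕ ι) (ι ⊕ ι) F))
    (hmul : ∀ g ∈ GM, ∀ h ∈ GM, g * h ∈ GM)
    (hinv : ∀ g ∈ GM, ∃ g' ∈ GM, g * g' = 1 ∧ g' * g = 1)
    (hscal : ∀ c : F, c ≠ 0 → c • (1 : Matrix (ι ⊕ ι) (ι ⊕ ι) F) ∈ GM)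
    (hA : ∀ A : Matrix ι ι F, A.det = 1 → ∃ D, Matrix.fromBlocks A 0 0 D ∈ GM)
    {k l : ι} (hkl : k ≠ l) {ε : ι → F} (hk : ε k = 1) (hl : ε l = -1) (hε : ∀ j, ε j * ε j = 1)
    (hP : Matrix.fromBlocks (Matrix.diagonal ε) 0 0 1 ∈ GM)
    (hswap : Matrix.fromBlocks 0 1 1 0 ∈ GM)
    (hT : Matrix.fromBlocks 1 (i • 1) (i • 1) 1 ∈ GM)
    (hX : Matrix.fromBlocks 1 0 0 ((-i) • 1) ∈ GM) :
    ∀ M : Matrix (ι ⊕ ι) (ι ⊕ ι) F, M.det = 1 → M ∈ GM := by
  have : Nontrivial ι := ⟨k, l, hkl⟩
  have hmem_smul : ∀ c : F, c ≠ 0 → ∀ g ∈ GM, c • g ∈ GM := fun c hc g hg => by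
    have := hmul _ (hscal c hc) _ hg
    rwa [smul_mul_assoc, one_mul] at this
  -- the normal subgroup acting on the first block
  set N : Set (Matrix ι ι F) := {A | Matrix.fromBlocks A 0 0 1 ∈ GM} with hN
  have hNmul : ∀ A ∈ N, ∀ B ∈ N, A * B ∈ N := fun A hA B hB => by
    have := hmul _ hA _ hB
    simpa [hN, Matrix.fromBlocks_multiply] using this
  have hNconj : ∀ A A' h : Matrix ι ι F, A.det = 1 → A * A' = 1 → h ∈ N → A * h * A' ∈ N := by
    intro A A' h hdet hAA' hh
    obtain ⟨D, hD⟩ := hA A hdet
    obtain ⟨g', hg', e1, -⟩ := hinv _ hD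
    have e2 := hmul _ (hmul _ hD _ hh) _ hg'
    rw [← Matrix.fromBlocks_toBlocks g', Matrix.fromBlocks_multiply, ← Matrix.fromBlocks_one,
      Matrix.fromBlocks_inj] at e1
    obtain ⟨e11, e12, e21, e22⟩ := e1
    simp only [Matrix.zero_mul, add_zero, zero_add] at e11 e12 e21 e22
    have hA'A : A' * A = 1 := mul_eq_one_comm.1 hAA'
    have h11 : g'.toBlocks₁₁ = A' := by
      rw [← Matrix.one_mul g'.toBlocks₁₁, ← hA'A, Matrix.mul_assoc, e11, Matrix.mul_one]
    have h12 : g'.toBlocks₁₂ = 0 := by
      rw [← Matrix.one_mul g'.toBlocks₁₂, ← hA'A, Matrix.mul_assoc, e12, Matrix.mul_zero]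
    rw [← Matrix.fromBlocks_toBlocks g', Matrix.fromBlocks_multiply,
      Matrix.fromBlocks_multiply] at e2
    simpa [hN, h11, h12, e21, e22] using e2
  -- transvections in the first block
  have hkl0 : ∀ c : F, Matrix.transvection k l c ∈ N := by
    intro c
    set T := Matrix.transvection k l (-(c * (2 : F)⁻¹)) with hTdef
    have hPT : Matrix.diagonal ε * T * Matrix.diagonal ε =
        Matrix.transvection k l (c * (2 : F)⁻¹) := by
      have hεε : Matrix.diagonal ε * Matrix.diagonal ε = 1 := by
        rw [Matrix.diagonal_mul_diagonal, funext hε, Matrix.diagonal_one]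
      rw [hTdef, Matrix.transvection, Matrix.transvection, mul_add, add_mul, mul_one, hεε]
      congr 1
      ext r j
      rw [Matrix.mul_diagonal, Matrix.diagonal_mul, Matrix.single_apply, Matrix.single_apply]
      by_cases h : k = r ∧ l = j
      · obtain ⟨rfl, rfl⟩ := h
        rw [if_pos ⟨rfl, rfl⟩, if_pos ⟨rfl, rfl⟩, hk, hl]
        ring
      · rw [if_neg h, if_neg h]
        ring
    have hc := hNmul _ hP _ (hNconj T (Matrix.transvection k l (c * (2 : F)⁻¹)) _
      (Matrix.det_transvection_of_ne _ _ hkl _)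
      (by rw [hTdef, Matrix.transvection_mul_transvection_same _ _ hkl, neg_add_cancel,
        Matrix.transvection_zero]) hP)
    rw [← Matrix.mul_assoc, ← Matrix.mul_assoc, hPT,
      Matrix.transvection_mul_transvection_same _ _ hkl, ← two_mul, mul_left_comm,
      mul_inv_cancel₀ h2, mul_one] at hc
    exact hc
  have hNall : ∀ A : Matrix ι ι F, A.det = 1 → A ∈ N := by
    refine fun A hdet => mem_of_transvections hNmul (fun a b hab c => ?_) A hdet
    obtain ⟨σ, rfl, rfl⟩ := exists_perm_pair hkl hab
    obtain ⟨d, hd, hdk, hdet'⟩ := exists_monomial (F := F) k σ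
    have hSS' : monomial σ d * (monomial σ d)⁻¹ = 1 :=
      Matrix.mul_nonsing_inv _ (by rw [hdet']; exact isUnit_one)
    have := hNconj _ _ _ hdet' hSS' (hkl0 (d k * c))
    have e : monomial σ d * Matrix.transvection k l (d k * c) =
        Matrix.transvection (σ k) (σ l) c * monomial σ d := by
      rw [Matrix.transvection, Matrix.transvection, mul_add, add_mul, mul_one, one_mul,
        monomial_mul_single, single_mul_monomial, ← mul_assoc, hdk, one_mul, hd l hkl.symm,
        mul_one]
    rwa [e, Matrix.mul_assoc, hSS', Matrix.mul_one] at this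
  -- both blocks
  have hlow : ∀ B : Matrix ι ι F, B.det = 1 → Matrix.fromBlocks 1 0 0 B ∈ GM := fun B hdet => by
    have := hmul _ (hmul _ hswap _ (hNall B hdet)) _ hswap
    simpa [Matrix.fromBlocks_multiply] using this
  have hdiag : ∀ A B : Matrix ι ι F, A.det = 1 → B.det = 1 →
      Matrix.fromBlocks A 0 0 B ∈ GM := fun A B hA hB => by
    have := hmul _ (hNall A hA) _ (hlow B hB)
    simpa [Matrix.fromBlocks_multiply] using this
  -- inverses of the quarter turns
  have hT' : Matrix.fromBlocks 1 ((-i) • 1) ((-i) • 1) 1 ∈ GM := by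
    obtain ⟨T', hT'm, -, e2⟩ := hinv _ hT
    have e : Matrix.fromBlocks (1 : Matrix ι ι F) (i • 1) (i • 1) 1 *
        Matrix.fromBlocks 1 ((-i) • 1) ((-i) • 1) 1 = (2 : F) • (1 : Matrix (ι ⊕ ι) (ι ⊕ ι) F) := by
      rw [Matrix.fromBlocks_multiply, ← Matrix.fromBlocks_one, Matrix.fromBlocks_smul]
      congr 1 <;>
        simp only [Matrix.smul_mul, Matrix.mul_smul, Matrix.one_mul, Matrix.mul_one, smul_smul,
          smul_zero] <;>
        match_scalars <;> first | ring1 | linear_combination hi | linear_combination (-1 : F) * hi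
    have h3 := congrArg (T' * ·) e
    simp only [← Matrix.mul_assoc, e2, Matrix.one_mul, Matrix.mul_smul, Matrix.mul_one] at h3
    rw [h3]
    exact hmem_smul _ h2 _ hT'm
  have hX' : Matrix.fromBlocks 1 0 0 (i • 1) ∈ GM := by
    obtain ⟨X', hX'm, -, e2⟩ := hinv _ hX
    have e : Matrix.fromBlocks (1 : Matrix ι ι F) 0 0 ((-i) • 1) *
        Matrix.fromBlocks (1 : Matrix ι ι F) 0 0 (i • (1 : Matrix ι ι F)) = 1 := by
      rw [Matrix.fromBlocks_multiply, ← Matrix.fromBlocks_one]
      simp [smul_smul, hi]
    rwa [← left_inv_eq_right_inv e2 e]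
  -- one transvection between the blocks
  have hskew : ∀ c : F, Matrix.fromBlocks 1 ((-i) • Matrix.single k l c)
      (i • Matrix.single k l c) 1 ∈ GM := by
    intro c
    have h := hmul _ (hmul _ (hmul _ hT _ (hNall (Matrix.transvection k l (2 * c))
      (Matrix.det_transvection_of_ne _ _ hkl _))) _ hT')
      _ (hdiag (Matrix.transvection k l (-c)) (Matrix.transvection k l (-c))
        (Matrix.det_transvection_of_ne _ _ hkl _) (Matrix.det_transvection_of_ne _ _ hkl _))
    convert hmem_smul _ (inv_ne_zero h2) _ h using 1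
    have h0 : ∀ u v : F, Matrix.single k l u * Matrix.single k l v = 0 := fun u v =>
      Matrix.single_mul_single_of_ne _ _ _ _ hkl.symm _
    have hs : ∀ u : F, Matrix.single k l u = u • Matrix.single k l (1 : F) := fun u => by
      rw [Matrix.smul_single, smul_eq_mul, mul_one]
    simp only [Matrix.transvection, hs c, hs (2 * c), hs (-c), Matrix.fromBlocks_multiply,
      Matrix.fromBlocks_smul, Matrix.mul_add, Matrix.add_mul, Matrix.smul_mul, Matrix.mul_smul,
      Matrix.one_mul, Matrix.mul_one, Matrix.mul_zero, Matrix.zero_mul, add_zero, zero_add, h0,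
      smul_zero, smul_add, smul_smul]
    congr 1 <;> match_scalars <;> field_simp <;> first | ring1 | linear_combination hi | linear_combination (-1 : F) * hi | linear_combination c * hi | linear_combination (-c) * hi | linear_combination (1 - c) * hi | linear_combination (1 + c) * hi | linear_combination (c - 1) * hi | linear_combination (-1 - c) * hi | linear_combination (2 * c) * hi | linear_combination (-2 * c) * hi
  have hcross0 : ∀ c : F, Matrix.transvection (Sum.inr k) (Sum.inl l) c ∈ GM := by
    intro c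
    have hu := hskew (c * (2 * i)⁻¹)
    have hv := hmul _ (hmul _ hX _ (hskew (i * (c * (2 * i)⁻¹)))) _ hX'
    have h := hmul _ hu _ hv
    convert h using 1
    have h0 : ∀ u v : F, Matrix.single k l u * Matrix.single k l v = 0 := fun u v =>
      Matrix.single_mul_single_of_ne _ _ _ _ hkl.symm _
    have hs : ∀ u : F, Matrix.single k l u = u • Matrix.single k l (1 : F) := fun u => by
      rw [Matrix.smul_single, smul_eq_mul, mul_one]
    have hi0 : i ≠ 0 := by rintro rfl; simp at hi
    rw [transvection_inr_inl]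
    simp only [hs c, hs (c * (2 * i)⁻¹), hs (i * (c * (2 * i)⁻¹)), Matrix.fromBlocks_multiply,
      Matrix.mul_add, Matrix.add_mul, Matrix.smul_mul, Matrix.mul_smul,
      Matrix.one_mul, Matrix.mul_one, Matrix.mul_zero, Matrix.zero_mul, add_zero, zero_add, h0,
      smul_zero, smul_smul]
    congr 1 <;> match_scalars <;> field_simp <;> first | ring1 | linear_combination hi | linear_combination (-1 : F) * hi | linear_combination c * hi | linear_combination (-c) * hi | linear_combination (c * i) * hi | linear_combination (-(c * i)) * hi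
  -- all transvections
  have hlowcross : ∀ a b : ι, ∀ c : F, Matrix.transvection (Sum.inr a) (Sum.inl b) c ∈ GM := by
    intro a b c
    obtain ⟨σ, rfl⟩ : ∃ σ : Equiv.Perm ι, σ k = a := ⟨Equiv.swap k a, by simp⟩
    obtain ⟨τ, rfl⟩ : ∃ τ : Equiv.Perm ι, τ l = b := ⟨Equiv.swap l b, by simp⟩
    obtain ⟨d, hd, -, hd'⟩ := exists_monomial (F := F) l σ
    obtain ⟨e, he, -, he'⟩ := exists_monomial (F := F) k τ
    have hB : monomial τ e * (monomial τ e)⁻¹ = 1 :=
      Matrix.mul_nonsing_inv _ (by rw [he']; exact isUnit_one)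
    have hS : monomial σ d * (monomial σ d)⁻¹ = 1 :=
      Matrix.mul_nonsing_inv _ (by rw [hd']; exact isUnit_one)
    have hde : ((monomial τ e)⁻¹).det = 1 := by
      rw [Matrix.det_nonsing_inv, he', Ring.inverse_one]
    have hde' : ((monomial σ d)⁻¹).det = 1 := by
      rw [Matrix.det_nonsing_inv, hd', Ring.inverse_one]
    have h := hmul _ (hmul _ (hdiag _ _ he' hd') _ (hcross0 c)) _ (hdiag _ _ hde hde')
    have key : monomial σ d * Matrix.single k l c =
        Matrix.single (σ k) (τ l) c * monomial τ e := by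
      rw [monomial_mul_single, single_mul_monomial, hd k hkl, he l hkl.symm, mul_one, one_mul]
    rw [transvection_inr_inl] at h ⊢
    simp only [Matrix.fromBlocks_multiply, Matrix.mul_one, Matrix.mul_zero, Matrix.zero_mul,
      add_zero, zero_add, hB, hS, key, Matrix.mul_assoc] at h
    exact h
  have : Nontrivial (ι ⊕ ι) := Sum.inl_injective.nontrivial
  refine fun M hM => mem_of_transvections hmul ?_ M hM
  rintro (a | a) (b | b) hab c
  · rw [transvection_inl]
    exact hNall _ (Matrix.det_transvection_of_ne _ _ (fun h => hab (congrArg _ h)) _)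
  · have := hmul _ (hmul _ hswap _ (hlowcross a b c)) _ hswap
    rw [transvection_inr_inl] at this
    rw [transvection_inl_inr]
    simpa [Matrix.fromBlocks_multiply] using this
  · exact hlowcross a b c
  · rw [transvection_inr]
    exact hlow _ (Matrix.det_transvection_of_ne _ _ (fun h => hab (congrArg _ h)) _)

end Blocks

universe u

variable {F : Type*} [Field F]

lemma exists_ns_sq_one {V : Type*} [AddCommGroup V] [Module F V] [FiniteDimensional F V] {i : F}
    {R : Set (Module.End F V)} (hD : Data i R) (hn : 2 ≤ Module.finrank F V) :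
    ∃ x ∈ R, x * x = 1 ∧ NS x := by
  obtain ⟨r, hrR, hr⟩ : ∃ r ∈ R, NS r := by
    by_contra hcon
    push Not at hcon
    have hle : Submodule.span F R ≤ Submodule.span F {(1 : Module.End F V)} :=
      Submodule.span_le.2 fun r hr => by
        have := hcon r hr
        unfold NS at this
        push Not at this
        obtain ⟨c, rfl⟩ := this
        exact Submodule.smul_mem _ c (Submodule.mem_span_singleton_self _)
    rw [hD.span_eq] at hle
    have : Nontrivial V := Module.nontrivial_of_finrank_pos (R := F) (by omega)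
    have h4 := (Submodule.finrank_mono hle).trans (finrank_span_singleton (one_ne_zero' _)).le
    rw [finrank_top, Module.finrank_linearMap] at h4
    nlinarith
  obtain ⟨c, hc, hxR, hx⟩ := hD.exists_sq_one hrR
  exact ⟨c • r, hxR, hx, hr.smul hc⟩

/-- If the centraliser of an involution of `R` induces all maps of determinant one on its fixed
space, then `G` contains all maps of determinant one. -/
theorem all_of_res {V : Type u} [AddCommGroup V] [Module F V] [FiniteDimensional F V] {i : F}
    {R G : Set (Module.End F V)} (hD : Data i R) (hG : Grp i R G) {x : Module.End F V}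
    (hxR : x ∈ R) (hx : x * x = 1) (hns : NS x) (hm : 2 ≤ Module.finrank F (Eig x))
    (hSL : ∀ f : Module.End F (Eig x), LinearMap.det f = 1 → f ∈ Res x G) :
    ∀ f : Module.End F V, LinearMap.det f = 1 → f ∈ G := by
  classical
  have h2 := hD.two_ne
  have : Nontrivial (Eig x) := Module.nontrivial_of_finrank_pos (R := F) (by omega)
  have : Nontrivial V := (Eig x).subtype_injective.nontrivial
  obtain ⟨a, haR, ha, hxa⟩ := hD.exists_anticomm hxR hns
  have hax : ∀ v, x (a v) = -a (x v) := fun v => by
    simpa using congrArg (fun g : Module.End F V => g v) hxa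
  have haa : ∀ v, a (a v) = v := fun v => by
    simpa using congrArg (fun g : Module.End F V => g v) ha
  have hxu : ∀ u : Eig x, x (u : V) = u := fun u => mem_eig.1 u.2
  -- coordinates
  have hDW := hD.res hxR hx
  obtain ⟨φ, ⟨f₀, hf₀R, hf₀c, hf₀⟩, hφ, hφns⟩ := exists_ns_sq_one hDW hm
  have hφR : φ ∈ Res x R := ⟨f₀, hf₀R, hf₀c, hf₀⟩
  have hp := nontrivial_eig hDW hφR hφ hφns
  have hmφ : (-φ) * (-φ) = 1 := (neg_mul_neg φ φ).trans hφ
  have hq := nontrivial_eig hDW (hDW.neg_mem hφR) hmφ
    ((neg_one_smul F φ) ▸ hφns.smul (neg_ne_zero.2 (one_ne_zero' F)))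
  have hco : IsCompl (Eig φ) (Eig (-φ)) := by
    refine IsCompl.of_eq (eq_bot_iff.2 fun v ⟨h1, h1'⟩ => ?_) (eq_top_iff.2 fun v _ => ?_)
    · rw [SetLike.mem_coe, mem_eig] at h1 h1'
      rw [LinearMap.neg_apply, h1, neg_eq_iff_add_eq_zero, ← two_smul F] at h1'
      exact (Submodule.mem_bot F).2 ((smul_eq_zero.1 h1').resolve_left h2)
    · have hφφ : φ (φ v) = v := by
        simpa using congrArg (fun g : Module.End F (Eig x) => g v) hφ
      refine Submodule.mem_sup.2 ⟨(2 : F)⁻¹ • (v + φ v), ?_, (2 : F)⁻¹ • (v - φ v), ?_, ?_⟩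
      · exact Submodule.smul_mem _ _ (mem_eig.2 (by rw [map_add, hφφ, add_comm]))
      · exact Submodule.smul_mem _ _ (mem_eig.2 (by simp [hφφ]))
      · rw [← smul_add, show v + φ v + (v - φ v) = (2 : F) • v by rw [two_smul]; abel,
          inv_smul_smul₀ h2]
  let b := ((Module.finBasis F (Eig φ)).prod (Module.finBasis F (Eig (-φ)))).map
    (Submodule.prodEquivOfIsCompl _ _ hco)
  let k : Fin (Module.finrank F (Eig φ)) ⊕ Fin (Module.finrank F (Eig (-φ))) :=
    Sum.inl ⟨0, Module.finrank_pos⟩
  let l : Fin (Module.finrank F (Eig φ)) ⊕ Fin (Module.finrank F (Eig (-φ))) :=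
    Sum.inr ⟨0, Module.finrank_pos⟩
  set ε : Fin (Module.finrank F (Eig φ)) ⊕ Fin (Module.finrank F (Eig (-φ))) → F :=
    Sum.elim (fun _ => 1) (fun _ => -1) with hεdef
  have hφb : ∀ j, φ (b j) = ε j • b j := by
    rintro (j | j)
    · have := mem_eig.1 (Module.finBasis F (Eig φ) j).2
      simpa [b, hεdef] using this
    · have := mem_eig.1 (Module.finBasis F (Eig (-φ)) j).2
      rw [LinearMap.neg_apply, neg_eq_iff_eq_neg] at this
      simpa [b, hεdef] using this
  let Φ : (Eig x × Eig x) ≃ₗ[F] V :=
    LinearEquiv.ofBijective ((Eig x).subtype.coprod (a ∘ₗ (Eig x).subtype)) (by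
      have hinj : Function.Injective ((Eig x).subtype.coprod (a ∘ₗ (Eig x).subtype)) := by
        refine (injective_iff_map_eq_zero _).2 ?_
        rintro ⟨u, v⟩ h
        have h0 : (u : V) + a v = 0 := h
        have h' := congrArg x h0
        rw [map_add, hxu, hax, hxu, map_zero] at h'
        have hu : (u : V) = 0 := (smul_eq_zero.1 (show (2 : F) • (u : V) = 0 by
          linear_combination (norm := module) h0 + h')).resolve_left h2
        rw [hu, zero_add] at h0
        have hv : (v : V) = 0 := by rw [← haa v, h0, map_zero]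
        exact Prod.ext (Subtype.ext hu) (Subtype.ext hv)
      refine ⟨hinj, (LinearMap.injective_iff_surjective_of_finrank_eq_finrank ?_).1 hinj⟩
      rw [Module.finrank_prod, ← two_mul, finrank_eig_of_mem hD hxR hx hns])
  have hΦ : ∀ u v, Φ (u, v) = (u : V) + a v := fun u v => rfl
  let bV := (b.prod b).map Φ
  set L := LinearMap.toMatrixAlgEquiv bV with hL
  set l' := LinearMap.toMatrixAlgEquiv b with hl'
  have hblock : ∀ (g : Module.End F V) (A B C D : Module.End F (Eig x)),
      (∀ u v, g (Φ (u, v)) = Φ (A u + B v, C u + D v)) →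
      L g = Matrix.fromBlocks (l' A) (l' B) (l' C) (l' D) := by
    intro g A B C D hg
    ext (r | r) (j | j) <;>
      simp [hL, hl', bV, LinearMap.toMatrixAlgEquiv_apply, hg]
  let GM : Set (Matrix _ _ F) := L '' G
  have hmem : ∀ (g : Module.End F V), g ∈ G → ∀ A B C D,
      (∀ u v, g (Φ (u, v)) = Φ (A u + B v, C u + D v)) →
      Matrix.fromBlocks (l' A) (l' B) (l' C) (l' D) ∈ GM :=
    fun g hg A B C D h => ⟨g, hg, hblock g A B C D h⟩
  have hi := hD.sq_i
  have hi0 := hD.i_ne
  have h1i : (1 + i : F) ≠ 0 := fun h => h2 (by linear_combination (1 - i) * h + hi)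
  have h1i' : (1 - i : F) ≠ 0 := fun h => h2 (by linear_combination (1 + i) * h + hi)
  intro f hf
  have key := all_of_blocks hi h2 GM ?_ ?_ ?_ ?_ (k := k) (l := l) (ε := ε)
    (by simp [k, l]) rfl rfl ?_ ?_ ?_ ?_ ?_ (L f) ?_
  · obtain ⟨g, hg, e⟩ := key
    rwa [← L.injective e]
  · rintro _ ⟨g, hg, rfl⟩ _ ⟨h, hh, rfl⟩
    exact ⟨g * h, hG.mul_mem _ hg _ hh, map_mul L g h⟩
  · rintro _ ⟨g, hg, rfl⟩
    obtain ⟨g', hg', e1, e2⟩ := hG.inv_mem g hg
    exact ⟨L g', ⟨g', hg', rfl⟩, by rw [← map_mul, e1, map_one], by rw [← map_mul, e2, map_one]⟩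
  · exact fun c hc => ⟨c • 1, hG.smul_mem c hc, by rw [map_smul, map_one]⟩
  · intro A hA
    obtain ⟨ψ, rfl⟩ := l'.surjective A
    obtain ⟨g, hg, hgc, hgψ⟩ := hSL ψ (by rw [← hA]; exact (LinearMap.det_toMatrix b ψ).symm)
    have hc : x * (a * g * a) = a * g * a * x := by
      rw [← mul_assoc, ← mul_assoc, hxa, neg_mul, neg_mul, mul_assoc a x g, hgc, ← mul_assoc,
        mul_assoc (a * g) x a, hxa, mul_neg, neg_neg, ← mul_assoc]
    refine ⟨l' (resEl x (a * g * a) hc), ?_⟩
    have := hmem g hg ψ 0 0 (resEl x (a * g * a) hc) fun u v => by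
      simp only [LinearMap.zero_apply, add_zero, zero_add, hΦ, map_add, resEl_coe, hgψ,
        Module.End.mul_apply, haa]
    simpa only [map_zero] using this
  · rintro (j | j) <;> simp [hεdef]
  · -- the involution acting on one side only
    set f₁ := -f₀ with hf₁
    have hf₁R : f₁ ∈ R := hD.neg_mem hf₀R
    have hf₁c : x * f₁ = f₁ * x := by rw [hf₁, mul_neg, neg_mul, hf₀c]
    have hf₁sq : f₁ * f₁ = 1 := by
      rcases hD.sq_sign f₁ hf₁R with h | h
      · exact h
      · exfalso
        obtain ⟨w, hw⟩ := exists_ne (0 : Eig x)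
        have e1 := congrArg (fun g : Module.End F V => g w) h
        have e2 := congrArg (fun g : Module.End F (Eig x) => ((g w : Eig x) : V)) hφ
        simp [hf₁, hf₀] at e1 e2
        rw [e2, eq_neg_iff_add_eq_zero, ← two_smul F] at e1
        exact hw (Subtype.ext ((smul_eq_zero.1 e1).resolve_left h2))
    set z := ((2 : F) * (1 - i))⁻¹ • ((1 + i • x) * (1 + i • f₁) * (1 + i • (x * f₁))) with hz
    have hzG : z ∈ G := hG.smul_mem' (inv_ne_zero (mul_ne_zero h2 h1i'))
      (hG.mul_mem _ (hG.mul_mem _ (hG.t_mem x hxR hx) _ (hG.t_mem f₁ hf₁R hf₁sq)) _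
        (hG.t_mem _ (hD.mul_mem _ hxR _ hf₁R) (by
          rw [mul_assoc, ← mul_assoc f₁, ← hf₁c, mul_assoc x f₁ f₁, hf₁sq, mul_one, hx])))
    have hff : ∀ v, f₁ (f₁ v) = v := fun v => by
      simpa using congrArg (fun g : Module.End F V => g v) hf₁sq
    have hxf : ∀ v, x (f₁ v) = f₁ (x v) := fun v => by
      simpa using congrArg (fun g : Module.End F V => g v) hf₁c
    have hfu : ∀ u : Eig x, f₁ (u : V) = -(φ u : V) := fun u => by simp [hf₁, hf₀]
    have key := hmem z hzG φ 0 0 1 fun u v => by
      simp only [hz, hΦ, LinearMap.smul_apply, Module.End.mul_apply, LinearMap.add_apply,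
        Module.End.one_apply, map_add, map_smul, map_neg, hax, hxu, hxf, hff, LinearMap.zero_apply,
        add_zero, zero_add, smul_add, smul_neg, neg_neg]
      rw [hfu u]
      match_scalars <;> field_simp <;> first | ring1 | linear_combination hi | linear_combination (-1 : F) * hi | linear_combination i * hi | linear_combination (-i) * hi | linear_combination (1 + i) * hi | linear_combination (-2 : F) * hi | linear_combination (-1 + i) * hi | linear_combination (1 - i) * hi | linear_combination (2 : F) * hi | linear_combination (-1 - i) * hi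
    have hd : l' φ = Matrix.diagonal ε := by
      ext r j
      simp [hl', LinearMap.toMatrixAlgEquiv_apply, hφb, Finsupp.single_apply, Matrix.diagonal_apply]
      grind
    simpa only [map_zero, map_one, hd] using key
  · have := hmem a (hG.sub haR) 0 1 1 0 fun u v => by
      simp only [LinearMap.zero_apply, Module.End.one_apply, zero_add, add_zero, hΦ, map_add, haa]
      rw [add_comm]
    simpa only [map_zero, map_one] using this
  · have := hmem (1 + i • a) (hG.t_mem a haR ha) 1 (i • 1) (i • 1) 1 fun u v => by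
      simp only [LinearMap.smul_apply, LinearMap.add_apply, Module.End.one_apply, hΦ, map_add,
        map_smul, Submodule.coe_add, Submodule.coe_smul, haa, smul_add]
      abel
    simpa only [map_one, map_smul] using this
  · have := hmem ((1 + i)⁻¹ • (1 + i • x)) (hG.smul_mem' (inv_ne_zero h1i) (hG.t_mem x hxR hx))
      1 0 0 ((-i) • 1) fun u v => by
      simp only [LinearMap.smul_apply, LinearMap.add_apply, Module.End.one_apply, hΦ, map_add,
        map_smul, LinearMap.zero_apply, add_zero, zero_add, Submodule.coe_smul, hxu, hax, smul_neg]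
      match_scalars <;> field_simp <;> first | ring1 | linear_combination hi | linear_combination (-1 : F) * hi
    simpa only [map_zero, map_one, map_smul] using this
  · rw [← hf]
    exact LinearMap.det_toMatrix bV f

/-- The linear symplectic-type case over a prime field. -/
theorem normalises_or_sl [Fintype F] {p : ℕ} (hp : p.Prime) (hcard : Fintype.card F = p)
    {V : Type u} [AddCommGroup V] [Module F V] [FiniteDimensional F V] {i : F}
    {R G : Set (Module.End F V)} (hD : Data i R) (hG : Grp i R G)
    (hn : 2 ≤ Module.finrank F V) :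
    (∀ g ∈ G, Nrm R g) ∨ ∀ f : Module.End F V, LinearMap.det f = 1 → f ∈ G := by
  generalize hd : Module.finrank F V = n at hn
  induction n using Nat.strong_induction_on generalizing V with
  | _ n ih =>
    subst hd
    have h2 := hD.two_ne
    have : Nontrivial V := Module.nontrivial_of_finrank_pos (R := F) (by omega)
    have : Finite V := Module.finite_of_finite F
    have : Finite (Module.End F V) := Finite.of_injective _ DFunLike.coe_injective
    by_cases hdim : Module.finrank F V = 2
    · exact normalises_or_sl_of_two hp hcard hD hG hdim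
    have h3 : (3 : F) ≠ 0 := fun h => by
      haveI := Fact.mk hp
      have hc : CharP F p := charP_of_card_eq_prime hcard
      have : p ∣ 3 := (CharP.cast_eq_zero_iff F p 3).1 (by exact_mod_cast h)
      have hp3 := (Nat.prime_dvd_prime_iff_eq hp Nat.prime_three).1 this
      subst hp3
      have hpow := FiniteField.pow_card_sub_one_eq_one i hD.i_ne
      rw [hcard, pow_two, hD.sq_i] at hpow
      exact h2 (by linear_combination -hpow)
    have hpos : ∀ x ∈ R, x * x = 1 → NS x →
        2 * Module.finrank F (Eig x) = Module.finrank F V := fun x hxR hx hns =>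
      finrank_eig_of_mem hD hxR hx hns
    by_cases hgood : Good R G
    · left
      have hA : Antidiag i := fun H h0 h1 h1' => by
        have hdet : (!![1, 0; 0, i] : Matrix (Fin 2) (Fin 2) F).det ≠ 0 := by
          simp [Matrix.det_fin_two, hD.i_ne]
        have hdet' : (!![1, 3; -1, 1] : Matrix (Fin 2) (Fin 2) F).det ≠ 0 := by
          rw [Matrix.det_fin_two_of]
          intro h
          exact mul_ne_zero h2 h2 (by linear_combination h)
        exact exists_antidiag hD.sq_i h2 h3 H
          (fun u => h0 _ ⟨u, by simp [GeneralLinearGroup.coe_scalar,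
            ← Matrix.smul_one_eq_diagonal]⟩)
          (T := GeneralLinearGroup.mkOfDetNeZero _ hdet)
          (D := GeneralLinearGroup.mkOfDetNeZero _ hdet') (h1 _ rfl) (h1' _ rfl) rfl rfl
      obtain ⟨x, hxR, hx, hns⟩ := exists_ns_sq_one hD hn
      have := hpos x hxR hx hns
      exact fun g hg => normalises hD hG (fix_of_good hD hG hgood hA h3) (by omega) hg
    · right
      simp only [Good, not_forall] at hgood
      obtain ⟨x, hxR, hx, hns, φ, hφ, hbad⟩ := hgood
      have h := hpos x hxR hx hns
      have : Nontrivial (Eig x) := nontrivial_eig hD hxR hx hns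
      rcases ih (Module.finrank F (Eig x)) (by omega) (hD.res hxR hx) (hG.res hD hxR hx hns) rfl
        (by omega) with hN | hS
      · exact absurd (hN φ hφ) hbad
      · exact all_of_res hD hG hxR hx hns (by omega) hS

end Cfsg.Agent.MaxSub.CSix
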