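import Cfsg.Agent.MaxSub.CSix.Key
import Cfsg.Agent.MaxSub.Proper
import Cfsg.Agent.MaxSub.SymplecticType

/-!
Maximality in `SL` of normalisers of symplectic-type `2`-groups with centre of order four, from the
statement on endomorphisms.
-/

set_option autoImplicit false
set_option maxHeartbeats 800000

namespace Cfsg.Agent.MaxSub.CSix

open Matrix Cfsg.Geo
open scoped MatrixGroups commutatorElement

variable {F : Type*} [Field F]

section Det

variable {V : Type*} [AddCommGroup V] [Module F V] [FiniteDimensional F V]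

/-- The determinant of a combination of `1` and an involution with equally large eigenspaces. -/
lemma det_comb (h2 : (2 : F) ≠ 0) {y a : Module.End F V} (hy : y * y = 1) (ha : a * a = 1)
    (hya : y * a = -(a * y)) {k : ℕ} (hk : Module.finrank F V = 2 * k) (s t : F) :
    LinearMap.det (s • 1 + t • y : Module.End F V) = ((s + t) * (s - t)) ^ k := by
  have hyy : ∀ v, y (y v) = v := fun v => by
    simpa using congrArg (fun g : Module.End F V => g v) hy
  have hmy : (-y) * (-y) = 1 := by simp [hy]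
  have hc : IsCompl (Eig y) (Eig (-y)) := by
    refine ⟨Submodule.disjoint_def.2 fun v h1 h1' => ?_,
      codisjoint_iff.2 (eq_top_iff.2 fun v _ => ?_)⟩
    · rw [mem_eig] at h1
      rw [mem_eig, LinearMap.neg_apply, h1, neg_eq_iff_add_eq_zero, ← two_smul F] at h1'
      exact (smul_eq_zero.1 h1').resolve_left h2
    · refine Submodule.mem_sup.2 ⟨(2 : F)⁻¹ • (v + y v), ?_, (2 : F)⁻¹ • (v - y v), ?_, ?_⟩
      · rw [mem_eig, map_smul, map_add, hyy, add_comm]
      · rw [mem_eig, LinearMap.neg_apply, map_smul, map_sub, hyy, ← smul_neg, neg_sub]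
      · rw [← smul_add, show v + y v + (v - y v) = (2 : F) • v by rw [two_smul]; abel,
          inv_smul_smul₀ h2]
  have d1 := two_mul_finrank_eig h2 hy ha hya
  have d2 := two_mul_finrank_eig h2 hmy ha (by rw [neg_mul, hya, mul_neg])
  set E := Submodule.prodEquivOfIsCompl _ _ hc with hE
  have hf : (s • 1 + t • y : Module.End F V) = (E : (Eig y × Eig (-y)) →ₗ[F] V) ∘ₗ
      ((s + t) • (1 : Module.End F (Eig y))).prodMap ((s - t) • (1 : Module.End F (Eig (-y)))) ∘ₗ
      (E.symm : V →ₗ[F] Eig y × Eig (-y)) := by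
    refine LinearMap.ext fun v => ?_
    obtain ⟨⟨⟨u, hu⟩, ⟨w, hw⟩⟩, rfl⟩ := E.surjective v
    have hu' := mem_eig.1 hu
    have hw' : y w = -w := by
      have := mem_eig.1 hw
      rwa [LinearMap.neg_apply, neg_eq_iff_eq_neg] at this
    rw [LinearMap.comp_apply, LinearMap.comp_apply, LinearEquiv.coe_coe, LinearEquiv.coe_coe,
      E.symm_apply_apply]
    simp [hE, hu', hw']
    module
  rw [hf, LinearMap.det_conj, LinearMap.det_prodMap, LinearMap.det_smul, LinearMap.det_smul,
    map_one, map_one, mul_one, mul_one, mul_pow]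
  congr 2 <;> omega

end Det

variable [Fintype F] {n : ℕ} {R : Subgroup (GL (Fin n) F)}

lemma scalar_mem (u : Fˣ) : (Units.map (Matrix.scalar (Fin n) : F →+* _).toMonoidHom u : GL (Fin n) F)
    ∈ scalars (Fin n) F := ⟨u, rfl⟩

/-- What the data give: the degree, `i`, and the sign rules. -/
lemma data_of_symplecticType (hn : 8 ≤ n) (hR : IsLinearSymplecticTypeData 2 R) :
    ∃ p, p.Prime ∧ Fintype.card F = p ∧ ∃ m, 3 ≤ m ∧ n = 2 ^ m ∧
      ∃ i : F, Data i {f : Module.End F (Fin n → F) | ∃ g ∈ R,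
        f = Matrix.toLinAlgEquiv' (g : Matrix (Fin n) (Fin n) F)} := by
  obtain ⟨hst, hirr, p, e, hrp, hmin, hcase⟩ := id hR
  obtain ⟨hp, hcp, hcard, -⟩ := hmin
  rcases hcase with ⟨hodd, -⟩ | ⟨-, he, hZ, -, -⟩ | ⟨-, -, hcn, -⟩
  · exact absurd hodd (by decide)
  swap
  · rw [Fintype.card_fin] at hcn; omega
  subst he
  rw [pow_one] at hcard
  obtain ⟨m, hm⟩ := card_eq_pow_of_data (by rw [Fintype.card_fin]; omega) hR
  rw [Fintype.card_fin] at hm
  have hm3 : 3 ≤ m := by
    by_contra h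
    have : 2 ^ m ≤ 2 ^ 2 := Nat.pow_le_pow_right two_pos (by omega)
    omega
  refine ⟨p, hp, hcard, m, hm3, hm, ?_⟩
  have : Nonempty (Fin n) := ⟨⟨0, by omega⟩⟩
  haveI : Fact (Nat.Prime 2) := ⟨Nat.prime_two⟩
  haveI : Group.IsNilpotent R := hst.pGroup.isNilpotent
  have hexp : Monoid.exponent R = 4 := by rw [hst.exponent_eq]; rfl
  have hcl := commutator_le_center_of_cyclic_char hst.cyclic_of_characteristic (hexp.trans hZ.symm)
  have h2 : (2 : F) ≠ 0 := fun h => hrp ((Nat.prime_dvd_prime_iff_eq hp Nat.prime_two).1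
    ((CharP.cast_eq_zero_iff F p 2).1 (by exact_mod_cast h))).symm
  have h4 : ∀ g ∈ R, (g : Matrix (Fin n) (Fin n) F) ^ 4 = 1 := fun g hg => by
    have := Monoid.pow_exponent_eq_one (⟨g, hg⟩ : R)
    rw [hexp] at this
    simpa using congrArg (fun x : R => ((x : GL (Fin n) F) : Matrix (Fin n) (Fin n) F)) this
  -- the scalars in `R`
  let S : Subgroup Fˣ := R.comap (Units.map (Matrix.scalar (Fin n) : F →+* _).toMonoidHom)
  have hS4 : Nat.card S = 4 := by
    rw [← hZ]
    refine Nat.card_eq_of_bijective (fun u : S => (⟨⟨_, u.2⟩, Subgroup.mem_center_iff.2 fun y => ?_⟩ :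
      Subgroup.center R)) ⟨fun u u' h => ?_, fun z => ?_⟩
    · refine Subtype.ext (Units.ext ?_)
      simp [← Matrix.smul_one_eq_diagonal]
    · have h' := congrArg (fun x : Subgroup.center R => ((x.1 : GL (Fin n) F) : Matrix (Fin n) (Fin n) F)
        ⟨0, by omega⟩ ⟨0, by omega⟩) h
      exact Subtype.ext (Units.ext (by simpa using h'))
    · obtain ⟨c, hc⟩ := exists_scalar_of_mem_center hirr z.2
      have hc0 : c ≠ 0 := fun h0 => (z.1 : GL (Fin n) F).ne_zero (by rw [hc, h0, zero_smul])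
      have e : (Units.map (Matrix.scalar (Fin n) : F →+* _).toMonoidHom (Units.mk0 c hc0) :
          GL (Fin n) F) = (z.1 : GL (Fin n) F) :=
        Units.ext (by simp [hc, Matrix.smul_one_eq_diagonal])
      exact ⟨⟨Units.mk0 c hc0, by rw [Subgroup.mem_comap, e]; exact z.1.2⟩,
        Subtype.ext (Subtype.ext e)⟩
  obtain ⟨u, hu⟩ := IsCyclic.exists_ofOrder_eq_natCard (α := S)
  rw [hS4, ← Subgroup.orderOf_coe] at hu
  refine ⟨((u : Fˣ) : F), ?_⟩
  have hu4 : ((u : Fˣ) : F) ^ 4 = 1 := by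
    rw [← Units.val_pow_eq_pow_val, ← hu, pow_orderOf_eq_one, Units.val_one]
  have hu2 : ((u : Fˣ) : F) * ((u : Fˣ) : F) ≠ 1 := fun h => by
    have : (u : Fˣ) ^ 2 = 1 := Units.ext (by rw [Units.val_pow_eq_pow_val, pow_two, h, Units.val_one])
    have := Nat.le_of_dvd two_pos (orderOf_dvd_of_pow_eq_one this)
    omega
  have hi : ((u : Fˣ) : F) * ((u : Fˣ) : F) = -1 := by
    refine (mul_self_eq_one_iff.1 ?_).resolve_left hu2
    rw [← hu4]; ring
  -- scalar elements of `R` have fourth power one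
  have hsc4 : ∀ g ∈ R, ∀ c : F, (g : Matrix (Fin n) (Fin n) F) = c • 1 → c ^ 4 = 1 := by
    intro g hg c hc
    have := h4 g hg
    rw [hc, smul_pow, one_pow] at this
    exact (smul_left_injective F (one_ne_zero (α := Matrix (Fin n) (Fin n) F))) (by simpa using this)
  have hsign : ∀ a ∈ R, ∀ b ∈ R, ∃ c : F, (c = 1 ∨ c = -1) ∧
      (a : Matrix (Fin n) (Fin n) F) * b = c • ((b : Matrix (Fin n) (Fin n) F) * a) := by
    intro a ha b hb
    have hmem : ⁅(⟨a, ha⟩ : R), (⟨b, hb⟩ : R)⁆ ∈ Subgroup.center R :=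
      hcl (Subgroup.commutator_mem_commutator (Subgroup.mem_top _) (Subgroup.mem_top _))
    obtain ⟨c, hc⟩ := exists_scalar_of_mem_center hirr hmem
    have hab : (a : Matrix (Fin n) (Fin n) F) * b = c • ((b : Matrix (Fin n) (Fin n) F) * a) := by
      have h1 : a * b = ((⁅(⟨a, ha⟩ : R), (⟨b, hb⟩ : R)⁆ : R) : GL (Fin n) F) * (b * a) := by
        simp [commutatorElement_def, mul_assoc]
      rw [← Units.val_mul, h1, Units.val_mul, hc, Units.val_mul, smul_mul_assoc, one_mul]
    have hc4 := hsc4 _ (Subtype.prop _) c hc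
    have hc0 : c ≠ 0 := fun h0 => by simp [h0] at hc4
    have hab4 := h4 _ (R.mul_mem ha hb)
    set A := (a : Matrix (Fin n) (Fin n) F)
    set B := (b : Matrix (Fin n) (Fin n) F)
    rw [Units.val_mul] at hab4
    have hba : B * A = c⁻¹ • (A * B) := by rw [hab, inv_smul_smul₀ hc0]
    have e2 : (A * B) ^ 2 = c⁻¹ • (A ^ 2 * B ^ 2) := by
      calc (A * B) ^ 2 = A * (B * A) * B := by rw [pow_two]; simp only [mul_assoc]
        _ = c⁻¹ • (A ^ 2 * B ^ 2) := by
          rw [hba, mul_smul_comm, smul_mul_assoc]; simp only [pow_two, mul_assoc]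
    have e3 : B ^ 2 * A ^ 2 = A ^ 2 * B ^ 2 := by
      have e3a : B * A ^ 2 = (c⁻¹ * c⁻¹) • (A ^ 2 * B) := by
        rw [pow_two, ← mul_assoc, hba, smul_mul_assoc, mul_assoc, hba, mul_smul_comm, smul_smul,
          ← mul_assoc]
      rw [pow_two B, mul_assoc, e3a, mul_smul_comm, ← mul_assoc, e3a, smul_mul_assoc, smul_smul,
        mul_assoc (A ^ 2), show c⁻¹ * c⁻¹ * (c⁻¹ * c⁻¹) = 1 by
          rw [← mul_inv, ← mul_inv, show c * c * (c * c) = c ^ 4 by ring, hc4, inv_one], one_smul]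
    have e4 : (A * B) ^ 4 = (c⁻¹ * c⁻¹) • 1 := by
      rw [show 4 = 2 * 2 from rfl, pow_mul, e2, pow_two, smul_mul_smul_comm, mul_assoc,
        ← mul_assoc (B ^ 2), e3, mul_assoc, ← mul_assoc (A ^ 2), ← pow_add, ← pow_add, h4 a ha,
        h4 b hb, mul_one]
    rw [hab4] at e4
    have hc2 : c * c = 1 := by
      have := smul_left_injective F (one_ne_zero (α := Matrix (Fin n) (Fin n) F))
        (show (1 : F) • (1 : Matrix (Fin n) (Fin n) F) = (c⁻¹ * c⁻¹) • 1 by rw [one_smul]; exact e4)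
      simp only [← mul_inv] at this
      exact inv_eq_one.1 this.symm
    exact ⟨c, mul_self_eq_one_iff.1 hc2, hab⟩
  have : Nontrivial (Fin n → F) := inferInstance
  refine ⟨hi, h2, ⟨_, u.2, by simp [← Matrix.smul_one_eq_diagonal]⟩, ?_, ?_, ?_, ?_⟩
  · rintro _ ⟨g, hg, rfl⟩ _ ⟨g', hg', rfl⟩
    exact ⟨g * g', R.mul_mem hg hg', by rw [Units.val_mul, map_mul]⟩
  · rintro _ ⟨g, hg, rfl⟩ _ ⟨g', hg', rfl⟩
    obtain ⟨c, hc, e⟩ := hsign g hg g' hg'
    rcases hc with rfl | rfl
    · exact Or.inl (by rw [← map_mul, e, one_smul, map_mul])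
    · exact Or.inr (by rw [← map_mul, e, neg_one_smul, map_neg, map_mul])
  · rintro _ ⟨g, hg, rfl⟩
    obtain ⟨c, hc⟩ : ∃ c : F, (g : Matrix (Fin n) (Fin n) F) * g = c • 1 := by
      refine hirr.2 _ ?_
      rintro _ ⟨b, hb, rfl⟩
      obtain ⟨c, hc, e⟩ := hsign g hg b hb
      rw [mul_assoc, e, mul_smul_comm, ← mul_assoc, e, smul_mul_assoc, smul_smul,
        show c * c = 1 by rcases hc with rfl | rfl <;> simp, one_smul, mul_assoc]
    have hc2 : c * c = 1 := by
      have h := h4 g hg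
      rw [show 4 = 2 * 2 from rfl, pow_mul, pow_two, pow_two, hc, smul_mul_smul_comm, mul_one] at h
      exact smul_left_injective F (one_ne_zero (α := Matrix (Fin n) (Fin n) F)) (by simpa using h)
    rcases mul_self_eq_one_iff.1 hc2 with rfl | rfl
    · exact Or.inl (by rw [← map_mul, hc, one_smul, map_one])
    · exact Or.inr (by rw [← map_mul, hc, neg_one_smul, map_neg, map_one])
  · have h1 := Cfsg.Agent.GeoClasses.spanAlg_toSubmodule (F := F) R
    rw [Cfsg.Agent.GeoClasses.spanAlg_eq_top hirr, Algebra.top_toSubmodule] at h1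
    refine eq_top_iff.2 fun f _ => ?_
    obtain ⟨M, rfl⟩ := (Matrix.toLinAlgEquiv' (R := F) (n := Fin n)).surjective f
    have hM : M ∈ Submodule.span F (matrixSet R) := by
      have := (Submodule.mem_top : M ∈ (⊤ : Submodule F _))
      rw [h1] at this
      exact this
    have := Submodule.mem_map_of_mem
      (f := (Matrix.toLinAlgEquiv' (R := F) (n := Fin n)).toLinearMap) hM
    rw [Submodule.map_span] at this
    refine Submodule.span_mono ?_ this
    rintro _ ⟨_, ⟨g, hg, rfl⟩, rfl⟩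
    exact ⟨g, hg, rfl⟩

/-- Normalisers of symplectic-type `2`-groups are maximal in `SL`, given the endomorphism version. -/
theorem symplecticType_normalizer_maximal_of (hn : 8 ≤ n) (hR : IsLinearSymplecticTypeData 2 R)
    (hmain : ∀ (i : F) (Rs G : Set (Module.End F (Fin n → F))), Data i Rs → Grp i Rs G →
      (∀ g ∈ G, Nrm Rs g) ∨ ∀ f : Module.End F (Fin n → F), LinearMap.det f = 1 → f ∈ G) :
    IsMaximalIn (specialLinear (Fin n) F) (subgroupNormalizer R ⊓ specialLinear (Fin n) F) := by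
  obtain ⟨p, hp, hcard, m, hm, hnm, i, hD⟩ := data_of_symplecticType hn hR
  set Φ := (Matrix.toLinAlgEquiv' (R := F) (n := Fin n)) with hΦ
  set Rs := {f : Module.End F (Fin n → F) | ∃ g ∈ R, f = Φ (g : Matrix (Fin n) (Fin n) F)} with hRs
  have : Nonempty (Fin n) := ⟨⟨0, by omega⟩⟩
  have : Fact (Nat.Prime 2) := ⟨Nat.prime_two⟩
  have h3 : 3 ≤ Fintype.card (Fin n) := by rw [Fintype.card_fin]; omega
  refine ⟨lt_of_le_not_ge inf_le_right fun hle => not_le_subgroupNormalizer h3
    hR.symplecticType.pGroup hR.absIrred (hle.trans inf_le_left), fun M hM hMS => ?_⟩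
  obtain ⟨k, hk, hk4⟩ : ∃ k, n = 2 * k ∧ 4 ∣ k := by
    refine ⟨2 ^ (m - 1), by rw [hnm, ← pow_succ', show m - 1 + 1 = m by omega], ?_⟩
    exact ⟨2 ^ (m - 3), by rw [show (4 : ℕ) = 2 ^ 2 from rfl, ← pow_add]; congr 1; omega⟩
  have hfr : Module.finrank F (Fin n → F) = 2 * k := by rw [Module.finrank_fin_fun, hk]
  have hik : ∀ c : F, c ^ 4 = 1 → c ^ k = 1 := fun c hc => by
    obtain ⟨j, rfl⟩ := hk4; rw [pow_mul, hc, one_pow]
  have hi4 : i ^ 4 = 1 := by linear_combination (i * i - 1) * hD.sq_i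
  have hdetΦ : ∀ g : Matrix (Fin n) (Fin n) F, LinearMap.det (Φ g) = g.det := fun g =>
    LinearMap.det_toLin' g
  have hSL : ∀ g : GL (Fin n) F, g ∈ specialLinear (Fin n) F ↔
      (g : Matrix (Fin n) (Fin n) F).det = 1 := fun g => by
    rw [specialLinear, MonoidHom.mem_ker, Units.ext_iff, Matrix.GeneralLinearGroup.val_det_apply,
      Units.val_one]
  -- `R` has determinant one
  have hRdet : ∀ g ∈ R, g ∈ specialLinear (Fin n) F := by
    intro g hg
    rw [hSL, ← hdetΦ]
    have hgR : Φ (g : Matrix (Fin n) (Fin n) F) ∈ Rs := ⟨g, hg, rfl⟩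
    set f := Φ (g : Matrix (Fin n) (Fin n) F)
    obtain ⟨c, hc, hcR, hcsq⟩ := hD.exists_sq_one hgR
    have hc4 : c ^ 4 = 1 := by
      rcases hD.sq_sign f hgR with h | h <;>
        rw [smul_mul_smul_comm, h] at hcsq
      · have := smul_one_inj (V := Fin n → F) (hcsq.trans (one_smul F _).symm)
        linear_combination (c * c + 1) * this
      · rw [smul_neg, ← neg_smul] at hcsq
        have := smul_one_inj (V := Fin n → F) (hcsq.trans (one_smul F _).symm)
        linear_combination (1 - c * c) * this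
    by_cases hns : NS (c • f)
    · obtain ⟨a, -, ha, hca⟩ := hD.exists_anticomm hcR hns
      have h := det_comb hD.two_ne hcsq ha hca hfr 0 c⁻¹
      rw [zero_smul, zero_add, inv_smul_smul₀ hc] at h
      rw [h]
      refine hik _ ?_
      have : (c⁻¹) ^ 4 = 1 := by rw [inv_pow, hc4, inv_one]
      linear_combination ((c⁻¹) ^ 4 + 1) * this
    · simp only [NS, not_forall, not_not] at hns
      obtain ⟨d, hd⟩ := hns
      have hd2 : d * d = 1 := by
        rw [hd, smul_mul_smul_comm, mul_one] at hcsq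
        exact smul_one_inj (V := Fin n → F) (hcsq.trans (one_smul F _).symm)
      have hf : f = (c⁻¹ * d) • 1 := by rw [mul_smul, ← hd, inv_smul_smul₀ hc]
      rw [hf, LinearMap.det_smul, map_one, mul_one, hfr, mul_comm 2 k, pow_mul,
        hik _ (show (c⁻¹ * d) ^ 4 = 1 by
          rw [mul_pow, inv_pow, hc4, inv_one, one_mul]; linear_combination (d * d + 1) * hd2),
        one_pow]
  have hRM : ∀ g ∈ R, g ∈ M := fun g hg => hM ⟨Subgroup.le_normalizer hg, hRdet g hg⟩
  let G : Set (Module.End F (Fin n → F)) :=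
    {f | ∃ c : F, c ≠ 0 ∧ ∃ g ∈ M, f = c • Φ (g : Matrix (Fin n) (Fin n) F)}
  -- membership in the normaliser
  have hnorm : ∀ g : GL (Fin n) F, Nrm Rs (Φ g.val) → g ∈ subgroupNormalizer R := by
    intro g hg
    refine Subgroup.mem_normalizer_fintype (fun x hx => ?_)
    obtain ⟨_, ⟨x', hx', rfl⟩, e⟩ := hg _ ⟨x, hx, rfl⟩
    rw [← map_mul, ← map_mul] at e
    have : g * x = x' * g := Units.ext (Φ.injective e)
    rw [this, mul_inv_cancel_right]
    exact hx'
  have hscalM : ∀ u : Fˣ, (u : F) ^ n = 1 →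
      (Units.map (Matrix.scalar (Fin n) : F →+* _).toMonoidHom u : GL (Fin n) F) ∈ M := by
    intro u hu
    refine hM ⟨hnorm _ fun a ha => ⟨a, ha, ?_⟩, (hSL _).2 ?_⟩
    · simp [← Matrix.smul_one_eq_diagonal, mul_smul_comm, smul_mul_assoc]
    · simp [← Matrix.smul_one_eq_diagonal, Matrix.det_smul, hu]
  have hG : Grp i Rs G := by
    refine ⟨?_, ?_, ?_, ?_, ?_⟩
    · rintro _ ⟨c, hc, g, hg, rfl⟩
      refine ⟨_, ⟨c⁻¹, inv_ne_zero hc, g⁻¹, M.inv_mem hg, rfl⟩, ?_, ?_⟩
      · rw [smul_mul_smul_comm, mul_inv_cancel₀ hc, one_smul, ← map_mul, Units.mul_inv, map_one]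
      · rw [smul_mul_smul_comm, inv_mul_cancel₀ hc, one_smul, ← map_mul, Units.inv_mul, map_one]
    · rintro _ ⟨c, hc, g, hg, rfl⟩ _ ⟨d, hd, g', hg', rfl⟩
      exact ⟨c * d, mul_ne_zero hc hd, g * g', M.mul_mem hg hg',
        by rw [smul_mul_smul_comm, Units.val_mul, map_mul]⟩
    · exact fun c hc => ⟨c, hc, 1, M.one_mem, by rw [Units.val_one, map_one]⟩
    · rintro _ ⟨g, hg, rfl⟩
      exact ⟨1, one_ne_zero, g, hRM g hg, (one_smul _ _).symm⟩
    · intro y hy hyy
      by_cases hns : NS y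
      swap
      · simp only [NS, not_forall, not_not] at hns
        obtain ⟨d, rfl⟩ := hns
        refine ⟨1 + i * d, fun h0 => ?_, 1, M.one_mem, ?_⟩
        · have hd : d * d = 1 := by
            rw [smul_mul_smul_comm, mul_one] at hyy
            exact smul_one_inj (V := Fin n → F) (hyy.trans (one_smul F _).symm)
          exact hD.two_ne (by linear_combination (1 - i * d) * h0 + (d * d) * hD.sq_i - hd)
        · rw [Units.val_one, map_one, smul_smul, add_smul, one_smul]
      obtain ⟨a, -, ha, hya⟩ := hD.exists_anticomm hy hns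
      have h1i : (1 + i : F) ≠ 0 := fun h =>
        hD.two_ne (by linear_combination (1 - i) * h + hD.sq_i)
      set f := (1 + i)⁻¹ • (1 + i • y) with hf
      have hdet : LinearMap.det f = 1 := by
        have h := det_comb hD.two_ne hyy ha hya hfr 1 i
        rw [one_smul] at h
        rw [hf, LinearMap.det_smul, h, hfr, pow_mul, ← mul_pow,
          show ((1 + i)⁻¹ ^ 2 * ((1 + i) * (1 - i))) = -i by
            rw [pow_two, mul_assoc, ← mul_assoc _ (1 + i), inv_mul_cancel₀ h1i, one_mul,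
              inv_mul_eq_iff_eq_mul₀ h1i]
            linear_combination hD.sq_i]
        exact hik _ (by linear_combination hi4)
      obtain ⟨A, hA⟩ := Φ.surjective f
      have hAdet : A.det = 1 := by rw [← hdetΦ, hA, hdet]
      have hAu : IsUnit A := (Matrix.isUnit_iff_isUnit_det A).2 (by rw [hAdet]; exact isUnit_one)
      obtain ⟨g, rfl⟩ := hAu
      refine ⟨1 + i, h1i, g, hM ⟨hnorm g ?_, (hSL g).2 hAdet⟩, ?_⟩
      · rw [hA, hf]
        intro b hb
        rcases hD.comm_sign y hy b hb with h | h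
        · exact ⟨b, hb, by rw [smul_mul_assoc, mul_smul_comm, add_mul, mul_add, one_mul, mul_one,
            smul_mul_assoc, mul_smul_comm, h]⟩
        · refine ⟨_, hD.neg_mem (hD.i_smul_mem (hD.mul_mem _ hb _ hy)), ?_⟩
          rw [smul_mul_assoc, mul_smul_comm]
          congr 1
          rw [add_mul, one_mul, smul_mul_assoc, h, mul_add, mul_one, neg_mul (i • (b * y)),
            smul_mul_smul_comm, mul_assoc, hyy, mul_one, hD.sq_i, smul_neg]
          module
      · rw [hA, hf, smul_smul, mul_inv_cancel₀ h1i, one_smul]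
  rcases hmain i Rs G hD hG with h | h
  · left
    refine le_antisymm (fun g hg => ⟨hnorm g ?_, hMS hg⟩) hM
    exact h _ ⟨1, one_ne_zero, g, hg, (one_smul _ _).symm⟩
  · right
    refine le_antisymm hMS fun g hg => ?_
    obtain ⟨c, hc, g', hg', e⟩ := h (Φ g.val) (by rw [hdetΦ]; exact (hSL g).1 hg)
    have hg'S := (hSL g').1 (hMS hg')
    have hcn : c ^ n = 1 := by
      have := congrArg LinearMap.det e
      rw [LinearMap.det_smul, hdetΦ, hdetΦ, (hSL g).1 hg, hg'S, mul_one,
        Module.finrank_fin_fun] at this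
      exact this.symm
    have : g = Units.map (Matrix.scalar (Fin n) : F →+* _).toMonoidHom (Units.mk0 c hc) * g' := by
      refine Units.ext (Φ.injective ?_)
      rw [e, Units.val_mul, map_mul]
      simp [← Matrix.smul_one_eq_diagonal]
    rw [this]
    exact M.mul_mem (hscalM _ hcn) hg'

end Cfsg.Agent.MaxSub.CSix
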